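import Mathlib
import Cfsg.Agent.Lib.Helper8.Rank
import Cfsg.Agent.Lib.Helper12.IndexP

set_option autoImplicit false

namespace Cfsg.Agent.Lib.Helper8

open scoped IsMulCommutative

theorem prod_parity {ι A : Type*} [CommGroup A] (s : Finset ι) (f : ι → A) (k : ι → ℕ)
    (Ω ΩR : Subgroup A)
    (hidx : ∀ a ∈ Ω, ∀ b ∈ Ω, (a * b ∈ ΩR ↔ (a ∈ ΩR ↔ b ∈ ΩR)))
    (h : ∀ i ∈ s, f i ∈ Ω ∧ (f i ∈ ΩR ↔ Even (k i))) :
    ∏ i ∈ s, f i ∈ Ω ∧ (∏ i ∈ s, f i ∈ ΩR ↔ Even (∑ i ∈ s, k i)) := by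
  classical
  induction s using Finset.induction_on with
  | empty => simp [Ω.one_mem, ΩR.one_mem]
  | insert a s ha ih =>
    have ih' := ih (fun i hi => h i (Finset.mem_insert_of_mem hi))
    have ha' := h a (Finset.mem_insert_self a s)
    rw [Finset.prod_insert ha, Finset.sum_insert ha]
    refine ⟨Ω.mul_mem ha'.1 ih'.1, ?_⟩
    rw [hidx _ ha'.1 _ ih'.1, Nat.even_add, ha'.2, ih'.2]

/-- Transfer of an involution into an abelian Sylow 2-subgroup. -/
theorem abelian_sylow_two_transfer {G : Type*} [Group G] [Finite G] (S : Sylow 2 G)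
    [hS : IsMulCommutative (S : Subgroup G)] (Ω ΩR : Subgroup (S : Subgroup G))
    (hΩ : ∀ s : (S : Subgroup G), s ^ 2 = 1 → s ∈ Ω)
    (hidx : ∀ a ∈ Ω, ∀ b ∈ Ω, (a * b ∈ ΩR ↔ (a ∈ ΩR ↔ b ∈ ΩR)))
    (t : G) (ht : orderOf t = 2) (htS : t ∈ S)
    (hcon : ∀ n ∈ Subgroup.normalizer ((S : Subgroup G) : Set G),
      ∀ h : n * t * n⁻¹ ∈ (S : Subgroup G), (⟨_, h⟩ : (S : Subgroup G)) ∉ ΩR) :
    t ∉ commutator G := by
  classical
  haveI : Fact (Nat.Prime 2) := ⟨Nat.prime_two⟩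
  have : Fintype (Quotient (MulAction.orbitRel (Subgroup.zpowers (t : G)) (G ⧸ (S : Subgroup G)))) :=
    Fintype.ofFinite _
  have htt : t ^ 2 = 1 := by rw [← ht, pow_orderOf_eq_one]
  have claim : ∀ (k : ℕ) (g : G) (hmem : g⁻¹ * t ^ k * g ∈ (S : Subgroup G)), k ∣ 2 →
      ((⟨_, hmem⟩ : (S : Subgroup G)) ∈ Ω ∧ ((⟨_, hmem⟩ : (S : Subgroup G)) ∈ ΩR ↔ Even k)) := by
    intro k g hmem hdvd
    rcases (Nat.dvd_prime Nat.prime_two).mp hdvd with rfl | rfl
    · constructor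
      · apply hΩ
        apply Subtype.ext
        show (g⁻¹ * t ^ 1 * g) ^ 2 = 1
        have : g⁻¹ * t ^ 1 * g = g⁻¹ * t * g⁻¹⁻¹ := by rw [inv_inv, pow_one]
        rw [this, conj_pow, htt]
        group
      · constructor
        · intro hR
          exfalso
          have hmem' : g⁻¹ * t * g ∈ (S : Subgroup G) := by rw [pow_one] at hmem; exact hmem
          obtain ⟨n, hn, hn2⟩ := S.conj_eq_normalizer_conj_of_mem t g htS hmem'
          have hn' : n⁻¹ ∈ Subgroup.normalizer ((S : Subgroup G) : Set G) := Subgroup.inv_mem _ hn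
          have e : n⁻¹ * t * n⁻¹⁻¹ = g⁻¹ * t ^ 1 * g := by rw [inv_inv, pow_one, hn2]
          have h3 := hcon n⁻¹ hn' (by rw [e]; exact hmem)
          apply h3
          convert hR using 2
        · intro h
          exact absurd h (by decide)
    · have e : (⟨g⁻¹ * t ^ 2 * g, hmem⟩ : (S : Subgroup G)) = 1 := by
        apply Subtype.ext
        show g⁻¹ * t ^ 2 * g = 1
        rw [htt]
        group
      rw [e]
      exact ⟨Ω.one_mem, by simp [ΩR.one_mem]⟩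
  intro htc
  have hV : MonoidHom.transfer (MonoidHom.id (S : Subgroup G)) t = 1 :=
    Abelianization.commutator_subset_ker _ htc
  rw [MonoidHom.transfer_eq_prod_quotient_orbitRel_zpowers_quot] at hV
  have hpar := prod_parity Finset.univ
    (fun q : Quotient (MulAction.orbitRel (Subgroup.zpowers (t : G)) (G ⧸ (S : Subgroup G))) =>
      MonoidHom.id (S : Subgroup G) ⟨q.out.out⁻¹ * t ^ Function.minimalPeriod (t • ·) q.out * q.out.out,
            QuotientGroup.out_conj_pow_minimalPeriod_mem (S : Subgroup G) t q.out⟩)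
    (fun q => Function.minimalPeriod (t • ·) q.out) Ω ΩR hidx ?_
  · rw [hV, ← Subgroup.index_eq_sum_minimalPeriod] at hpar
    have h1 := hpar.2.mp ΩR.one_mem
    exact S.not_dvd_index h1.two_dvd
  · intro q _
    have hdvd : Function.minimalPeriod (t • ·) q.out ∣ 2 := by
      apply Function.IsPeriodicPt.minimalPeriod_dvd
      show (t • ·)^[2] q.out = q.out
      rw [smul_iterate, htt]
      exact one_smul _ _
    exact claim _ _ _ hdvd

theorem abelian_sylow_corank_one {G : Type*} [Group G] [Finite G] (hG : ∀ H : Subgroup G, H.index ≠ 2)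
    (S : Sylow 2 G) (hS : IsMulCommutative (S : Subgroup G)) (r : ℕ)
    (hSr : Cfsg.PRankLE 2 r (S : Subgroup G))
    (R : Subgroup G) (hRS : R ≤ S) (hRr : r = 1 ∨ ¬ Cfsg.PRankLE 2 (r - 2) R) (hr1 : 1 ≤ r)
    (t : G) (ht : orderOf t = 2) (htS : t ∈ S) :
    ∃ n ∈ Subgroup.normalizer ((S : Subgroup G) : Set G), n * t * n⁻¹ ∈ R := by
  classical
  haveI : Fact (Nat.Prime 2) := ⟨Nat.prime_two⟩
  by_contra hcon
  push Not at hcon
  obtain ⟨Ω, hΩ⟩ : ∃ Ω : Subgroup (S : Subgroup G), Ω = (powMonoidHom 2 : (S : Subgroup G) →* (S : Subgroup G)).ker :=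
    ⟨_, rfl⟩
  have hΩmem : ∀ s : (S : Subgroup G), s ∈ Ω ↔ s ^ 2 = 1 := by
    intro s
    rw [hΩ, MonoidHom.mem_ker]
    rfl
  obtain ⟨ΩR, hΩR⟩ : ∃ ΩR : Subgroup (S : Subgroup G), ΩR = Ω ⊓ R.subgroupOf S := ⟨_, rfl⟩
  have hle : ΩR ≤ Ω := hΩR ▸ inf_le_left
  have htt : t ^ 2 = 1 := by rw [← ht, pow_orderOf_eq_one]
  have htΩ : (⟨t, htS⟩ : (S : Subgroup G)) ∈ Ω := by
    rw [hΩmem]
    exact Subtype.ext htt
  have htR : (⟨t, htS⟩ : (S : Subgroup G)) ∉ ΩR := by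
    intro h
    rw [hΩR] at h
    have h1 : t ∈ R := h.2
    apply hcon 1 (Subgroup.one_mem _)
    simpa using h1
  have hc1 : Nat.card Ω ≤ 2 ^ r := by
    apply hSr Ω ⟨⟨fun a b => Subtype.ext (mul_comm _ _)⟩⟩
    intro a ha
    exact (hΩmem a).mp ha
  have hc2 : 2 ^ (r - 1) ≤ Nat.card ΩR := by
    have hp : IsPGroup 2 ΩR := (S.isPGroup'.to_subgroup ΩR)
    obtain ⟨k, hk⟩ := IsPGroup.iff_card.mp hp
    rcases hRr with rfl | h
    · simp only [Nat.sub_self, pow_zero]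
      exact Nat.card_pos
    · rw [not_pRankLE_iff] at h
      obtain ⟨A, hA0, hA1, hA2, hA3⟩ := h
      have h1 : A.subgroupOf S ≤ ΩR := by
        intro a ha
        rw [hΩR]
        refine ⟨?_, hA0 ha⟩
        exact (hΩmem a).mpr (Subtype.ext (hA2 a.1 ha))
      have h2 := Subgroup.card_le_of_le h1
      rw [Nat.card_congr (Subgroup.subgroupOfEquivOfLe (hA0.trans hRS)).toEquiv] at h2
      have h3 : 2 ^ (r - 2) < 2 ^ k := by rw [← hk]; omega
      have h4 : r - 2 < k := (Nat.pow_lt_pow_iff_right (by norm_num)).mp h3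
      rw [hk]
      exact Nat.pow_le_pow_right (by norm_num) (by omega)
  have hrel : ΩR.relIndex Ω = 2 := by
    have h1 : ΩR.relIndex Ω * Nat.card ΩR = Nat.card Ω := by
      have := Subgroup.relIndex_mul_relIndex ⊥ ΩR Ω bot_le hle
      rw [Subgroup.relIndex_bot_left, Subgroup.relIndex_bot_left] at this
      rw [mul_comm]; exact this
    have h2 : ΩR.relIndex Ω ≠ 1 := by
      intro h
      rw [Subgroup.relIndex_eq_one] at h
      exact htR (h htΩ)
    have h3 : ΩR.relIndex Ω ≠ 0 := by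
      intro h
      rw [h, zero_mul] at h1
      have : 0 < Nat.card Ω := Nat.card_pos
      omega
    have h4 : 2 ^ r = 2 * 2 ^ (r - 1) := by
      rw [← pow_succ']
      congr 1
      omega
    by_contra h5
    have h6 : 3 ≤ ΩR.relIndex Ω := by omega
    have h7 : 3 * Nat.card ΩR ≤ ΩR.relIndex Ω * Nat.card ΩR := Nat.mul_le_mul_right _ h6
    have h8 : 0 < Nat.card ΩR := Nat.card_pos
    omega
  have hidx : ∀ a ∈ Ω, ∀ b ∈ Ω, (a * b ∈ ΩR ↔ (a ∈ ΩR ↔ b ∈ ΩR)) := by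
    intro a ha b hb
    exact Subgroup.mul_mem_iff_of_index_two (H := ΩR.subgroupOf Ω) hrel (a := ⟨a, ha⟩) (b := ⟨b, hb⟩)
  have hnc := abelian_sylow_two_transfer S Ω ΩR (fun s hs => (hΩmem s).mpr hs) hidx t ht htS ?_
  · have h1 : ¬ (S : Subgroup G) ≤ commutator G := fun h => hnc (h htS)
    obtain ⟨M, -, hM⟩ := Cfsg.Agent.Lib.Helper12.exists_normal_index_p_of_not_le S.isPGroup' h1
    exact hG M hM
  · intro n hn h hmem
    rw [hΩR] at hmem
    exact hcon n hn hmem.2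

end Cfsg.Agent.Lib.Helper8
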