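import Mathlib
import Cfsg.Agent.Lib.Helper8.StrEmb
import Cfsg.Agent.Lib.Helper8.CharIn

set_option autoImplicit false

namespace Cfsg.Agent.Lib.Helper8

variable {G : Type*} [Group G]

/-- an involutory automorphism without nontrivial fixed points inverts every element -/
theorem inverts_of_fixedPointFree [Finite G] (A : Subgroup G) {v : G} (hv : v * v = 1)
    (hn : ∀ a ∈ A, v * a * v⁻¹ ∈ A) (hfpf : ∀ c ∈ A, v * c * v⁻¹ = c → c = 1) :
    ∀ a ∈ A, v * a * v⁻¹ = a⁻¹ := by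
  have hvi : v⁻¹ = v := inv_eq_of_mul_eq_one_left hv
  let f : A → A := fun e => ⟨e.1⁻¹ * (v * e.1 * v⁻¹), A.mul_mem (A.inv_mem e.2) (hn e.1 e.2)⟩
  have hinj : Function.Injective f := by
    intro e e' hee
    have h1 : e.1⁻¹ * (v * e.1 * v⁻¹) = e'.1⁻¹ * (v * e'.1 * v⁻¹) := congrArg Subtype.val hee
    have h2 : v * (e'.1 * e.1⁻¹) * v⁻¹ = e'.1 * e.1⁻¹ := by
      calc v * (e'.1 * e.1⁻¹) * v⁻¹ = e'.1 * (e'.1⁻¹ * (v * e'.1 * v⁻¹)) * (v * e.1 * v⁻¹)⁻¹ := by group
        _ = e'.1 * (e.1⁻¹ * (v * e.1 * v⁻¹)) * (v * e.1 * v⁻¹)⁻¹ := by rw [h1]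
        _ = e'.1 * e.1⁻¹ := by group
    have h3 := hfpf _ (A.mul_mem e'.2 (A.inv_mem e.2)) h2
    apply Subtype.ext
    exact (mul_inv_eq_one.mp h3).symm
  have hsurj := Finite.injective_iff_surjective.mp hinj
  intro a ha
  obtain ⟨e, he⟩ := hsurj ⟨a, ha⟩
  have he' : e.1⁻¹ * (v * e.1 * v⁻¹) = a := congrArg Subtype.val he
  rw [← he']
  calc v * (e.1⁻¹ * (v * e.1 * v⁻¹)) * v⁻¹ = (v * e.1 * v⁻¹)⁻¹ * ((v * v) * e.1 * (v⁻¹ * v⁻¹)) := by group
    _ = (v * e.1 * v⁻¹)⁻¹ * e.1 := by rw [hvi, hv]; group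
    _ = (e.1⁻¹ * (v * e.1 * v⁻¹))⁻¹ := by group

/-- the abstract setting of a group in which centralizers of involutions have exponent two, acting
transitively on a set where each involution has a unique fixed point. -/
structure CIT (G Ω : Type*) [Group G] [MulAction G Ω] : Prop where
  trans : MulAction.IsPretransitive G Ω
  fix : UniqueFix G Ω
  cent : ∀ a c : G, orderOf a = 2 → Commute c a → c * c = 1
  comm : ∀ (s t : G) (x : Ω), orderOf s = 2 → orderOf t = 2 → s • x = x → t • x = x → Commute s t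
  ex : ∃ a : G, orderOf a = 2

variable {Ω : Type*} [MulAction G Ω]

namespace CIT

theorem eq_one_of_sq (h : CIT G Ω) {g : G} {x y : Ω} (hxy : x ≠ y) (hg : g * g = 1) (hx : g • x = x)
    (hy : g • y = y) : g = 1 := by
  by_contra hne
  exact hxy (h.fix.eq (orderOf_eq_two_of hne hg) hx hy)

theorem exists_invol_fix (h : CIT G Ω) (z : Ω) : ∃ s : G, orderOf s = 2 ∧ s • z = z := by
  haveI := h.trans
  obtain ⟨a, ha⟩ := h.ex
  obtain ⟨p, hp, -⟩ := h.fix a ha
  obtain ⟨g, rfl⟩ := MulAction.exists_smul_eq G p z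
  refine ⟨g * a * g⁻¹, orderOf_conj_two ha g, ?_⟩
  rw [smul_smul, inv_mul_cancel_right, mul_smul, hp]

theorem exists_swap [Finite G] (h : CIT G Ω) {x y : Ω} (hxy : x ≠ y) :
    ∃ i : G, orderOf i = 2 ∧ i • x = y := by
  obtain ⟨s, hs, hsy⟩ := h.exists_invol_fix y
  obtain ⟨t, ht, htx⟩ := h.exists_invol_fix x
  obtain ⟨i, hi, hix, -⟩ := h.fix.exists_swap hxy hs hsy ht htx
  exact ⟨i, hi, hix⟩

theorem swap_symm {i : G} (hi : orderOf i = 2) {x y : Ω} (hix : i • x = y) : i • y = x := by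
  rw [← hix, smul_smul, sq_of_orderOf_two hi, one_smul]

/-- an involution interchanging `x` and `y` inverts the stabilizer of `x` and `y` -/
theorem inverts [Finite G] (h : CIT G Ω) {x y : Ω} (hxy : x ≠ y) {i : G} (hi : orderOf i = 2)
    (hix : i • x = y) {d : G} (hdx : d • x = x) (hdy : d • y = y) : i * d * i⁻¹ = d⁻¹ := by
  have hiy := swap_symm hi hix
  have hii := inv_of_orderOf_two hi
  apply inverts_of_fixedPointFree (MulAction.stabilizer G x ⊓ MulAction.stabilizer G y)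
    (sq_of_orderOf_two hi)
  · intro a ha
    obtain ⟨ha1, ha2⟩ := Subgroup.mem_inf.mp ha
    rw [MulAction.mem_stabilizer_iff] at ha1 ha2
    apply Subgroup.mem_inf.mpr
    rw [MulAction.mem_stabilizer_iff, MulAction.mem_stabilizer_iff, hii]
    constructor
    · rw [mul_smul, mul_smul, hix, ha2, hiy]
    · rw [mul_smul, mul_smul, hiy, ha1, hix]
  · intro c hc hcc
    obtain ⟨hc1, hc2⟩ := Subgroup.mem_inf.mp hc
    rw [MulAction.mem_stabilizer_iff] at hc1 hc2
    apply h.eq_one_of_sq hxy _ hc1 hc2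
    apply h.cent i c hi
    show c * i = i * c
    calc c * i = (i * c * i⁻¹) * i := by rw [hcc]
      _ = i * c := by group
  · exact Subgroup.mem_inf.mpr ⟨hdx, hdy⟩

/-- the centralizer of a nontrivial element of a two point stabilizer fixes its fixed points -/
theorem centralizer_fix [Finite G] (h : CIT G Ω) {x y : Ω} (hxy : x ≠ y) {d : G} (hd : d ≠ 1)
    (hdx : d • x = x) (hdy : d • y = y) {c : G} (hc : c * d = d * c) : c • x = x := by
  by_contra hcx
  have hdx' : d • (c • x) = c • x := by rw [smul_smul, ← hc, mul_smul, hdx]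
  obtain ⟨v, hv, hvx⟩ := h.exists_swap (Ne.symm hcx)
  have hvv := sq_of_orderOf_two hv
  have hvi := inv_of_orderOf_two hv
  have hvd : v * d * v⁻¹ = d⁻¹ := h.inverts (Ne.symm hcx) hv hvx hdx hdx'
  have hdd : d * d ≠ 1 := fun h1 => hd (h.eq_one_of_sq hxy h1 hdx hdy)
  have hvc : v * c * v⁻¹ = c⁻¹ := by
    apply inverts_of_fixedPointFree (Subgroup.centralizer ({d} : Set G)) hvv
    · intro a ha
      rw [Subgroup.mem_centralizer_singleton_iff] at ha ⊢
      have h1 : v⁻¹ * d * v = d⁻¹ := by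
        rw [hvi]; nth_rewrite 2 [← hvi]; exact hvd
      have h2 : a * d⁻¹ = d⁻¹ * a := by
        calc a * d⁻¹ = d⁻¹ * (d * a) * d⁻¹ := by group
          _ = d⁻¹ * (a * d) * d⁻¹ := by rw [ha]
          _ = d⁻¹ * a := by group
      calc v * a * v⁻¹ * d = v * (a * (v⁻¹ * d * v)) * v⁻¹ := by group
        _ = v * (a * d⁻¹) * v⁻¹ := by rw [h1]
        _ = v * (d⁻¹ * a) * v⁻¹ := by rw [h2]
        _ = (v * d * v⁻¹)⁻¹ * (v * a * v⁻¹) := by group
        _ = d * (v * a * v⁻¹) := by rw [hvd, inv_inv]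
    · intro c' hc' hcc
      rw [Subgroup.mem_centralizer_singleton_iff] at hc'
      by_contra hne
      have h1 : c' * c' = 1 := by
        apply h.cent v c' hv
        show c' * v = v * c'
        calc c' * v = (v * c' * v⁻¹) * v := by rw [hcc]
          _ = v * c' := by group
      exact hdd (h.cent c' d (orderOf_eq_two_of hne h1) hc'.symm)
    · rw [Subgroup.mem_centralizer_singleton_iff]; exact hc
  -- the involution `τ = c⁻¹ v`
  have hτx : (c⁻¹ * v) • x = x := by rw [mul_smul, hvx, smul_smul, inv_mul_cancel, one_smul]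
  have hττ : (c⁻¹ * v) * (c⁻¹ * v) = 1 := by
    calc (c⁻¹ * v) * (c⁻¹ * v) = c⁻¹ * (v * c * v⁻¹)⁻¹ * (v * v) := by group
      _ = 1 := by rw [hvc, hvv]; group
  have hτd : (c⁻¹ * v) * d * (c⁻¹ * v)⁻¹ = d⁻¹ := by
    calc (c⁻¹ * v) * d * (c⁻¹ * v)⁻¹ = c⁻¹ * (v * d * v⁻¹) * c := by group
      _ = c⁻¹ * d⁻¹ * c := by rw [hvd]
      _ = (c⁻¹ * (d * c))⁻¹ := by group
      _ = (c⁻¹ * (c * d))⁻¹ := by rw [hc]
      _ = d⁻¹ := by group
  have hτ1 : c⁻¹ * v ≠ 1 := by
    intro h1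
    rw [h1] at hτd
    apply hdd
    have : d = d⁻¹ := by simpa using hτd
    calc d * d = d * d⁻¹ := by rw [← this]
      _ = 1 := mul_inv_cancel d
  generalize c⁻¹ * v = τ at hτx hττ hτd hτ1
  have hτo := orderOf_eq_two_of hτ1 hττ
  have hτi := inv_of_orderOf_two hτo
  have hτ'x : (d * τ * d⁻¹) • x = x := by
    have : d⁻¹ • x = x := by rw [inv_smul_eq_iff]; exact hdx.symm
    rw [mul_smul, mul_smul, this, hτx, hdx]
  have hcomm := h.comm τ (d * τ * d⁻¹) x hτo (orderOf_conj_two hτo d) hτx hτ'x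
  have e1 : τ * (d * τ * d⁻¹) = d⁻¹ * d⁻¹ := by
    calc τ * (d * τ * d⁻¹) = (τ * d * τ⁻¹) * d⁻¹ := by rw [hτi]; group
      _ = d⁻¹ * d⁻¹ := by rw [hτd]
  have e2 : (d⁻¹ * d⁻¹) * (d⁻¹ * d⁻¹) = 1 := by
    rw [← e1]
    calc τ * (d * τ * d⁻¹) * (τ * (d * τ * d⁻¹)) = τ * ((d * τ * d⁻¹) * τ) * (d * τ * d⁻¹) := by group
      _ = τ * (τ * (d * τ * d⁻¹)) * (d * τ * d⁻¹) := by rw [hcomm.eq]
      _ = (τ * τ) * (d * (τ * τ) * d⁻¹) := by group
      _ = 1 := by rw [hττ]; group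
  have hdix : d⁻¹ • x = x := by rw [inv_smul_eq_iff]; exact hdx.symm
  have hdiy : d⁻¹ • y = y := by rw [inv_smul_eq_iff]; exact hdy.symm
  have e3 : d⁻¹ * d⁻¹ = 1 := by
    apply h.eq_one_of_sq hxy e2
    · rw [mul_smul, hdix, hdix]
    · rw [mul_smul, hdiy, hdiy]
  apply hdd
  calc d * d = (d⁻¹ * d⁻¹)⁻¹ := by rw [mul_inv_rev, inv_inv]
    _ = 1 := by rw [e3, inv_one]

/-- a nontrivial element fixes at most two points -/
theorem eq_of_fix [Finite G] (h : CIT G Ω) {x y b : Ω} (hxy : x ≠ y) {d : G} (hd : d ≠ 1)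
    (hdx : d • x = x) (hdy : d • y = y) (hdb : d • b = b) (hbx : b ≠ x) : b = y := by
  obtain ⟨u, hu, hux⟩ := h.exists_swap hxy
  obtain ⟨v, hv, hvx⟩ := h.exists_swap (Ne.symm hbx)
  have h1 := h.inverts hxy hu hux hdx hdy
  have h2 := h.inverts (Ne.symm hbx) hv hvx hdx hdb
  have h3 : (u * v) * d = d * (u * v) := by
    have : (u * v) * d * (u * v)⁻¹ = d := by
      calc (u * v) * d * (u * v)⁻¹ = u * (v * d * v⁻¹) * u⁻¹ := by group
        _ = (u * d * u⁻¹)⁻¹ := by rw [h2]; group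
        _ = d := by rw [h1, inv_inv]
    calc (u * v) * d = ((u * v) * d * (u * v)⁻¹) * (u * v) := by group
      _ = d * (u * v) := by rw [this]
  have h4 := h.centralizer_fix hxy hd hdx hdy h3
  rw [mul_smul, hvx] at h4
  rw [← hux, ← h4, smul_smul, sq_of_orderOf_two hu, one_smul]

theorem eq_of_conj_eq (h : CIT G Ω) {x y : Ω} (hxy : x ≠ y) {t d e : G} (ht : orderOf t = 2)
    (hdx : d • x = x) (hdy : d • y = y) (hex : e • x = x) (hey : e • y = y)
    (hde : d * t * d⁻¹ = e * t * e⁻¹) : d = e := by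
  have h1 : (e⁻¹ * d) * t = t * (e⁻¹ * d) := by
    calc (e⁻¹ * d) * t = e⁻¹ * (d * t * d⁻¹) * d := by group
      _ = e⁻¹ * (e * t * e⁻¹) * d := by rw [hde]
      _ = t * (e⁻¹ * d) := by group
  have h2 := h.cent t _ ht h1
  have heix : e⁻¹ • x = x := by rw [inv_smul_eq_iff]; exact hex.symm
  have heiy : e⁻¹ • y = y := by rw [inv_smul_eq_iff]; exact hey.symm
  have h3 : e⁻¹ * d = 1 := by
    apply h.eq_one_of_sq hxy h2
    · rw [mul_smul, hdx, heix]
    · rw [mul_smul, hdy, heiy]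
  exact (inv_mul_eq_one.mp h3).symm

theorem exists_conj [Finite G] [Finite Ω] (h : CIT G Ω) {x y : Ω} (hxy : x ≠ y) {s t : G}
    (hs : orderOf s = 2) (hsx : s • x = x) (ht : orderOf t = 2) (htx : t • x = x) :
    ∃ d : G, d • x = x ∧ d • y = y ∧ d * t * d⁻¹ = s := by
  haveI := h.trans
  obtain ⟨u, hu, hux⟩ := h.exists_swap hxy
  have hux' : u • x ≠ x := by rw [hux]; exact Ne.symm hxy
  obtain ⟨d, hd1, hd2, -, hd3⟩ := h.fix.exists_conj_of_swap hu hux' hs hsx ht htx
  rw [hux] at hd2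
  exact ⟨d, hd1, hd2, hd3⟩

theorem card_stabilizer_inf [Finite G] [Finite Ω] (h : CIT G Ω) {x y : Ω} (hxy : x ≠ y) :
    Nat.card {d : G // d • x = x ∧ d • y = y} = Nat.card {t : G // orderOf t = 2 ∧ t • x = x} := by
  obtain ⟨t, ht, htx⟩ := h.exists_invol_fix x
  let ψ : {d : G // d • x = x ∧ d • y = y} → {t : G // orderOf t = 2 ∧ t • x = x} :=
    fun d => ⟨d.1 * t * d.1⁻¹, orderOf_conj_two ht _, by
      have : d.1⁻¹ • x = x := by rw [inv_smul_eq_iff]; exact d.2.1.symm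
      rw [mul_smul, mul_smul, this, htx, d.2.1]⟩
  apply Nat.card_congr (Equiv.ofBijective ψ ⟨?_, ?_⟩)
  · rintro ⟨d, hd1, hd2⟩ ⟨e, he1, he2⟩ hde
    apply Subtype.ext
    exact h.eq_of_conj_eq hxy ht hd1 hd2 he1 he2 (congrArg Subtype.val hde)
  · rintro ⟨s, hs, hsx⟩
    obtain ⟨d, hd1, hd2, hd3⟩ := h.exists_conj hxy hs hsx ht htx
    exact ⟨⟨d, hd1, hd2⟩, Subtype.ext hd3⟩

/-- elements of the point stabilizer with trivial square -/
theorem sq_eq_one_iff (h : CIT G Ω) {x : Ω} {t : G} (ht : orderOf t = 2) (htx : t • x = x) (c : G) :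
    c * t = t * c ↔ (c • x = x ∧ c * c = 1) := by
  constructor
  · intro hc
    refine ⟨?_, h.cent t c ht hc⟩
    apply h.fix.eq ht _ htx
    rw [smul_smul, ← hc, mul_smul, htx]
  · rintro ⟨hcx, hcc⟩
    by_cases hc1 : c = 1
    · rw [hc1]; simp
    · exact (h.comm c t x (orderOf_eq_two_of hc1 hcc) ht hcx htx).eq

theorem card_sq_eq_one [Finite G] (h : CIT G Ω) (x : Ω) :
    Nat.card {c : G // c • x = x ∧ c * c = 1} = Nat.card {t : G // orderOf t = 2 ∧ t • x = x} + 1 := by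
  classical
  haveI : Fintype G := Fintype.ofFinite G
  rw [Nat.card_eq_fintype_card, Nat.card_eq_fintype_card, Fintype.card_subtype, Fintype.card_subtype]
  have : (Finset.univ.filter (fun c : G => c • x = x ∧ c * c = 1))
      = insert 1 (Finset.univ.filter (fun t : G => orderOf t = 2 ∧ t • x = x)) := by
    ext c
    simp only [Finset.mem_filter, Finset.mem_univ, true_and, Finset.mem_insert]
    constructor
    · rintro ⟨h1, h2⟩
      by_cases hc : c = 1
      · left; exact hc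
      · right; exact ⟨orderOf_eq_two_of hc h2, h1⟩
    · rintro (rfl | ⟨h1, h2⟩)
      · simp
      · exact ⟨h2, sq_of_orderOf_two h1⟩
  rw [this, Finset.card_insert_of_notMem]
  simp

/-- factorization of the point stabilizer -/
theorem exists_factor [Finite G] [Finite Ω] (h : CIT G Ω) {x y : Ω} (hxy : x ≠ y) {g : G}
    (hg : g • x = x) : ∃ d c : G, d • x = x ∧ d • y = y ∧ c • x = x ∧ c * c = 1 ∧ g = d * c := by
  obtain ⟨t, ht, htx⟩ := h.exists_invol_fix x
  have hgi : g⁻¹ • x = x := by rw [inv_smul_eq_iff]; exact hg.symm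
  have h1 : (g * t * g⁻¹) • x = x := by rw [mul_smul, mul_smul, hgi, htx, hg]
  obtain ⟨d, hd1, hd2, hd3⟩ := h.exists_conj hxy (orderOf_conj_two ht g) h1 ht htx
  have h2 : (d⁻¹ * g) * t = t * (d⁻¹ * g) := by
    calc (d⁻¹ * g) * t = d⁻¹ * (g * t * g⁻¹) * g := by group
      _ = d⁻¹ * (d * t * d⁻¹) * g := by rw [hd3]
      _ = t * (d⁻¹ * g) := by group
  obtain ⟨h3, h4⟩ := (h.sq_eq_one_iff ht htx _).mp h2
  exact ⟨d, d⁻¹ * g, hd1, hd2, h3, h4, by group⟩

theorem smul_injective_of_sq (h : CIT G Ω) {x y : Ω} (hxy : x ≠ y) {c c' : G} (hcx : c • x = x)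
    (hcc : c * c = 1) (hcx' : c' • x = x) (hcc' : c' * c' = 1) (hy : c • y = c' • y) : c = c' := by
  obtain ⟨t, ht, htx⟩ := h.exists_invol_fix x
  have h1 := (h.sq_eq_one_iff ht htx c).mpr ⟨hcx, hcc⟩
  have h2 := (h.sq_eq_one_iff ht htx c').mpr ⟨hcx', hcc'⟩
  have h3 : (c'⁻¹ * c) * t = t * (c'⁻¹ * c) := by
    calc (c'⁻¹ * c) * t = c'⁻¹ * (c * t) := by group
      _ = c'⁻¹ * (t * c) := by rw [h1]
      _ = c'⁻¹ * (t * c') * c'⁻¹ * c := by group
      _ = c'⁻¹ * (c' * t) * c'⁻¹ * c := by rw [h2]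
      _ = t * (c'⁻¹ * c) := by group
  obtain ⟨h4, h5⟩ := (h.sq_eq_one_iff ht htx _).mp h3
  have h6 : c'⁻¹ * c = 1 := by
    apply h.eq_one_of_sq hxy h5 h4
    rw [mul_smul, hy, smul_smul, inv_mul_cancel, one_smul]
  exact (inv_mul_eq_one.mp h6).symm

open Finset in
theorem card_le [Finite G] [Finite Ω] (h : CIT G Ω) {x y : Ω} (hxy : x ≠ y)
    (hm : 2 ≤ Nat.card {t : G // orderOf t = 2 ∧ t • x = x}) :
    Nat.card Ω ≤ Nat.card {t : G // orderOf t = 2 ∧ t • x = x} + 2 := by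
  classical
  haveI : Fintype G := Fintype.ofFinite G
  haveI : Fintype Ω := Fintype.ofFinite Ω
  set m := Nat.card {t : G // orderOf t = 2 ∧ t • x = x} with hmdef
  let A : Ω → Finset G := fun z => univ.filter (fun g : G => g ≠ 1 ∧ g • x = x ∧ g • z = z)
  let B : Finset G := univ.filter (fun g : G => g • x = x ∧ g * g ≠ 1)
  let Cf : Finset G := univ.filter (fun c : G => c • x = x ∧ c * c = 1)
  have hA : ∀ z ∈ (univ : Finset Ω).erase x, #(A z) = m - 1 := by
    intro z hz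
    have hxz : x ≠ z := (ne_of_mem_erase hz).symm
    have h1 := h.card_stabilizer_inf hxz
    rw [Nat.card_eq_fintype_card, Fintype.card_subtype] at h1
    have h2 : A z = (univ.filter (fun g : G => g • x = x ∧ g • z = z)).erase 1 := by
      ext g
      simp [A]
    rw [h2, card_erase_of_mem (by simp), h1]
  have hCf : #Cf = m + 1 := by
    have := h.card_sq_eq_one x
    rwa [Nat.card_eq_fintype_card, Fintype.card_subtype] at this
  have hsub : ((univ : Finset Ω).erase x).biUnion A ⊆ B := by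
    intro g hg
    rw [mem_biUnion] at hg
    obtain ⟨z, hz, hgz⟩ := hg
    have hxz : x ≠ z := (ne_of_mem_erase hz).symm
    simp only [A, mem_filter, mem_univ, true_and] at hgz
    simp only [B, mem_filter, mem_univ, true_and]
    exact ⟨hgz.2.1, fun hgg => hgz.1 (h.eq_one_of_sq hxz hgg hgz.2.1 hgz.2.2)⟩
  have hdisj : ∀ z ∈ (univ : Finset Ω).erase x, ∀ z' ∈ (univ : Finset Ω).erase x, z ≠ z' →
      Disjoint (A z) (A z') := by
    intro z hz z' hz' hne
    rw [disjoint_left]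
    intro g hg hg'
    simp only [A, mem_filter, mem_univ, true_and] at hg hg'
    exact hne (h.eq_of_fix (ne_of_mem_erase hz).symm hg.1 hg.2.1 hg.2.2 hg'.2.2
      (ne_of_mem_erase hz')).symm
  have hB : B ⊆ ((A y) ×ˢ Cf).image (fun p => p.1 * p.2) := by
    intro g hg
    simp only [B, mem_filter, mem_univ, true_and] at hg
    obtain ⟨d, c, hd1, hd2, hc1, hc2, rfl⟩ := h.exists_factor hxy hg.1
    rw [mem_image]
    refine ⟨(d, c), ?_, rfl⟩
    rw [mem_product]
    simp only [A, Cf, mem_filter, mem_univ, true_and]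
    refine ⟨⟨?_, hd1, hd2⟩, hc1, hc2⟩
    rintro rfl
    apply hg.2
    rw [one_mul]; exact hc2
  have h1 : #(((univ : Finset Ω).erase x).biUnion A) = (Fintype.card Ω - 1) * (m - 1) := by
    rw [card_biUnion hdisj, sum_congr rfl hA, sum_const, smul_eq_mul, card_erase_of_mem (mem_univ x),
      card_univ]
  have h2 : #B ≤ (m - 1) * (m + 1) := by
    refine (card_le_card hB).trans (card_image_le.trans ?_)
    rw [card_product, hA y (mem_erase.mpr ⟨Ne.symm hxy, mem_univ y⟩), hCf]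
  have h3 : (Fintype.card Ω - 1) * (m - 1) ≤ (m + 1) * (m - 1) := by
    rw [← h1, mul_comm (m + 1)]
    exact (card_le_card hsub).trans h2
  have h4 := Nat.le_of_mul_le_mul_right h3 (by omega)
  rw [Nat.card_eq_fintype_card]
  omega

theorem le_card [Finite G] [Finite Ω] (h : CIT G Ω) {x y : Ω} (hxy : x ≠ y) :
    Nat.card {c : G // c • x = x ∧ c * c = 1} ≤ Nat.card {z : Ω // z ≠ x} := by
  apply Nat.card_le_card_of_injective
    (fun c : {c : G // c • x = x ∧ c * c = 1} => (⟨c.1 • y, by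
      intro hc
      apply hxy
      have : c.1 • y = c.1 • x := by rw [hc, c.2.1]
      exact (smul_left_cancel c.1 this).symm⟩ : {z : Ω // z ≠ x}))
  rintro ⟨c, hc1, hc2⟩ ⟨c', hc1', hc2'⟩ hcc
  apply Subtype.ext
  exact h.smul_injective_of_sq hxy hc1 hc2 hc1' hc2' (congrArg Subtype.val hcc)

theorem card_ne (x : Ω) [Finite Ω] : Nat.card {z : Ω // z ≠ x} = Nat.card Ω - 1 := by
  classical
  haveI : Fintype Ω := Fintype.ofFinite Ω
  rw [Nat.card_eq_fintype_card, Nat.card_eq_fintype_card, Fintype.card_subtype_compl,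
    Fintype.card_subtype_eq]

theorem card_eq [Finite G] [Finite Ω] (h : CIT G Ω) {x y : Ω} (hxy : x ≠ y)
    (hm : 2 ≤ Nat.card {t : G // orderOf t = 2 ∧ t • x = x}) :
    Nat.card Ω = Nat.card {t : G // orderOf t = 2 ∧ t • x = x} + 2 := by
  have h1 := h.card_le hxy hm
  have h2 := h.le_card hxy
  rw [h.card_sq_eq_one, card_ne] at h2
  omega

/-- the elements of square one in the stabilizer of `x` are transitive on the other points -/
theorem exists_sq_smul_eq [Finite G] [Finite Ω] (h : CIT G Ω) {x y z : Ω} (hxy : x ≠ y) (hxz : x ≠ z)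
    (hm : 2 ≤ Nat.card {t : G // orderOf t = 2 ∧ t • x = x}) :
    ∃ c : G, c • x = x ∧ c * c = 1 ∧ c • y = z := by
  let f : {c : G // c • x = x ∧ c * c = 1} → {z : Ω // z ≠ x} := fun c => ⟨c.1 • y, by
      intro hc
      apply hxy
      have : c.1 • y = c.1 • x := by rw [hc, c.2.1]
      exact (smul_left_cancel c.1 this).symm⟩
  have hinj : Function.Injective f := by
    rintro ⟨c, hc1, hc2⟩ ⟨c', hc1', hc2'⟩ hcc
    apply Subtype.ext
    exact h.smul_injective_of_sq hxy hc1 hc2 hc1' hc2' (congrArg Subtype.val hcc)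
  have hcard : Nat.card {z : Ω // z ≠ x} ≤ Nat.card {c : G // c • x = x ∧ c * c = 1} := by
    rw [h.card_sq_eq_one, card_ne, h.card_eq hxy hm]
    omega
  obtain ⟨⟨c, hc1, hc2⟩, hc⟩ := (hinj.bijective_of_nat_card_le hcard).2 ⟨z, Ne.symm hxz⟩
  exact ⟨c, hc1, hc2, congrArg Subtype.val hc⟩

theorem card_ne_ne {x y : Ω} (hxy : x ≠ y) [Finite Ω] :
    Nat.card {z : Ω // z ≠ x ∧ z ≠ y} = Nat.card Ω - 2 := by
  classical
  haveI : Fintype Ω := Fintype.ofFinite Ω
  rw [Nat.card_eq_fintype_card, Nat.card_eq_fintype_card, Fintype.card_subtype]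
  have : (Finset.univ.filter (fun z : Ω => z ≠ x ∧ z ≠ y)) = (Finset.univ.erase y).erase x := by
    ext z
    simp
  rw [this, Finset.card_erase_of_mem (by simp [hxy]), Finset.card_erase_of_mem (by simp),
    Finset.card_univ]
  omega

/-- the two point stabilizer is transitive on the remaining points -/
theorem exists_stab_smul_eq [Finite G] [Finite Ω] (h : CIT G Ω) {x y z w : Ω} (hxy : x ≠ y)
    (hzx : z ≠ x) (hzy : z ≠ y) (hwx : w ≠ x) (hwy : w ≠ y)
    (hm : 2 ≤ Nat.card {t : G // orderOf t = 2 ∧ t • x = x}) :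
    ∃ d : G, d • x = x ∧ d • y = y ∧ d • z = w := by
  let f : {d : G // d • x = x ∧ d • y = y} → {z : Ω // z ≠ x ∧ z ≠ y} := fun d => ⟨d.1 • z, by
      constructor
      · intro hd
        apply hzx
        have : d.1 • z = d.1 • x := by rw [hd, d.2.1]
        exact smul_left_cancel d.1 this
      · intro hd
        apply hzy
        have : d.1 • z = d.1 • y := by rw [hd, d.2.2]
        exact smul_left_cancel d.1 this⟩
  have hinj : Function.Injective f := by
    rintro ⟨d, hd1, hd2⟩ ⟨e, he1, he2⟩ hde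
    have hde' : d • z = e • z := congrArg Subtype.val hde
    apply Subtype.ext
    by_contra hne
    have heix : e⁻¹ • x = x := by rw [inv_smul_eq_iff]; exact he1.symm
    have heiy : e⁻¹ • y = y := by rw [inv_smul_eq_iff]; exact he2.symm
    apply hzy
    apply h.eq_of_fix hxy (d := e⁻¹ * d) _ _ _ _ hzx
    · intro h1
      exact hne (inv_mul_eq_one.mp h1).symm
    · rw [mul_smul, hd1, heix]
    · rw [mul_smul, hd2, heiy]
    · rw [mul_smul, hde', smul_smul, inv_mul_cancel, one_smul]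
  have hcard : Nat.card {z : Ω // z ≠ x ∧ z ≠ y} ≤ Nat.card {d : G // d • x = x ∧ d • y = y} := by
    rw [h.card_stabilizer_inf hxy, card_ne_ne hxy, h.card_eq hxy hm]
    omega
  obtain ⟨⟨d, hd1, hd2⟩, hd⟩ := (hinj.bijective_of_nat_card_le hcard).2 ⟨w, hwx, hwy⟩
  exact ⟨d, hd1, hd2, congrArg Subtype.val hd⟩

theorem card_invol_const (h : CIT G Ω) (x x' : Ω) :
    Nat.card {t : G // orderOf t = 2 ∧ t • x' = x'} = Nat.card {t : G // orderOf t = 2 ∧ t • x = x} := by
  haveI := h.trans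
  obtain ⟨g, rfl⟩ := MulAction.exists_smul_eq G x x'
  exact card_invol_stabilizer_smul g x

theorem three_trans [Finite G] [Finite Ω] (h : CIT G Ω) (x₀ : Ω)
    (hm : 2 ≤ Nat.card {t : G // orderOf t = 2 ∧ t • x₀ = x₀}) (x₁ x₂ x₃ y₁ y₂ y₃ : Ω)
    (hx12 : x₁ ≠ x₂) (hx13 : x₁ ≠ x₃) (hx23 : x₂ ≠ x₃) (hy12 : y₁ ≠ y₂) (hy13 : y₁ ≠ y₃)
    (hy23 : y₂ ≠ y₃) : ∃ g : G, g • x₁ = y₁ ∧ g • x₂ = y₂ ∧ g • x₃ = y₃ := by
  haveI := h.trans
  have hm' : 2 ≤ Nat.card {t : G // orderOf t = 2 ∧ t • y₁ = y₁} := by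
    rw [h.card_invol_const x₀ y₁]; exact hm
  obtain ⟨g₁, hg₁⟩ := MulAction.exists_smul_eq G x₁ y₁
  have h12 : y₁ ≠ g₁ • x₂ := by
    rw [← hg₁]; exact fun hh => hx12 (smul_left_cancel g₁ hh)
  obtain ⟨c, hc1, -, hc2⟩ := h.exists_sq_smul_eq h12 hy12 hm'
  have h13 : (c * g₁) • x₃ ≠ y₁ := by
    intro hh
    apply hx13
    have : (c * g₁) • x₃ = (c * g₁) • x₁ := by rw [hh, mul_smul, hg₁, hc1]
    exact (smul_left_cancel _ this).symm
  have h23 : (c * g₁) • x₃ ≠ y₂ := by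
    intro hh
    apply hx23
    have : (c * g₁) • x₃ = (c * g₁) • x₂ := by rw [hh, mul_smul, hc2]
    exact (smul_left_cancel _ this).symm
  obtain ⟨d, hd1, hd2, hd3⟩ := h.exists_stab_smul_eq hy12 h13 h23 (Ne.symm hy13) (Ne.symm hy23) hm'
  refine ⟨d * (c * g₁), ?_, ?_, ?_⟩
  · rw [mul_smul, mul_smul, hg₁, hc1, hd1]
  · rw [mul_smul, mul_smul, hc2, hd2]
  · rw [mul_smul, hd3]

theorem eq_one_of_fix_three [Finite G] (h : CIT G Ω) {g : G} {x₁ x₂ x₃ : Ω} (h12 : x₁ ≠ x₂)
    (h13 : x₁ ≠ x₃) (h23 : x₂ ≠ x₃) (h1 : g • x₁ = x₁) (h2 : g • x₂ = x₂) (h3 : g • x₃ = x₃) : g = 1 := by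
  by_contra hne
  exact h23 (h.eq_of_fix h12 hne h1 h2 h3 (Ne.symm h13)).symm

end CIT

section Concrete

variable [Finite G] (T : Sylow 2 G)

/-- basic consequences of the hypothesis that centralizers of involutions are elementary abelian -/
theorem cit_basic (hnc : ¬ IsCyclic (T : Subgroup G))
    (hC : ∀ t : G, orderOf t = 2 → IsMulCommutative (Subgroup.centralizer ({t} : Set G)) ∧
      ∀ c ∈ Subgroup.centralizer ({t} : Set G), c ^ 2 = 1) :
    (∃ t ∈ (T : Subgroup G), orderOf t = 2) ∧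
    (∀ s ∈ (T : Subgroup G), orderOf s = 2 → Subgroup.centralizer ({s} : Set G) = T) ∧
    (∀ s ∈ Subgroup.normalizer ((T : Subgroup G) : Set G), orderOf s = 2 → s ∈ (T : Subgroup G)) := by
  classical
  have hT1 : (T : Subgroup G) ≠ ⊥ := by
    intro h
    apply hnc
    rw [h]
    infer_instance
  obtain ⟨t, htT, hto, htc⟩ := exists_central_orderOf_eq T.2 hT1
  have hC2 : ∀ s : G, orderOf s = 2 → IsPGroup 2 (Subgroup.centralizer ({s} : Set G)) := by
    intro s hs c
    refine ⟨1, ?_⟩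
    apply Subtype.ext
    simpa using (hC s hs).2 c.1 c.2
  have hTt : Subgroup.centralizer ({t} : Set G) = T := by
    have hle : (T : Subgroup G) ≤ Subgroup.centralizer ({t} : Set G) := by
      intro x hx
      rw [Subgroup.mem_centralizer_singleton_iff]
      exact htc x hx
    exact (T.3 (hC2 t hto) hle)
  refine ⟨⟨t, htT, hto⟩, ?_, ?_⟩
  · intro s hs hso
    have hle : (T : Subgroup G) ≤ Subgroup.centralizer ({s} : Set G) := by
      intro x hx
      rw [Subgroup.mem_centralizer_singleton_iff]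
      have hcomm := (hC t hto).1
      rw [hTt] at hcomm
      have := hcomm.is_comm.comm ⟨x, hx⟩ ⟨s, hs⟩
      exact congrArg Subtype.val this
    exact (T.3 (hC2 s hso) hle)
  · intro s hs hso
    have h1 : IsPGroup 2 (Subgroup.zpowers s) := by
      rw [IsPGroup.iff_card]
      exact ⟨1, by rw [Nat.card_zpowers, hso, pow_one]⟩
    have h2 : IsPGroup 2 ((T : Subgroup G) ⊔ Subgroup.zpowers s : Subgroup G) := by
      apply IsPGroup.to_sup_of_normal_left' T.2 h1
      rw [Subgroup.zpowers_le]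
      exact hs
    have h3 := T.3 h2 le_sup_left
    rw [← h3]
    exact (le_sup_right : Subgroup.zpowers s ≤ _) (Subgroup.mem_zpowers s)

theorem cit_isStronglyEmbedded (hnc : ¬ IsCyclic (T : Subgroup G)) (hnn : ¬ (T : Subgroup G).Normal)
    (hC : ∀ t : G, orderOf t = 2 → IsMulCommutative (Subgroup.centralizer ({t} : Set G)) ∧
      ∀ c ∈ Subgroup.centralizer ({t} : Set G), c ^ 2 = 1) :
    Cfsg.IsStronglyEmbedded (Subgroup.normalizer ((T : Subgroup G) : Set G)) := by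
  obtain ⟨⟨t, htT, hto⟩, hTs, hinv⟩ := cit_basic T hnc hC
  refine ⟨?_, ?_, ?_⟩
  · intro h
    apply hnn
    exact Subgroup.normalizer_eq_top_iff.mp h
  · rw [even_iff_two_dvd]
    exact two_dvd_card_of_mem hto (Subgroup.le_normalizer htT)
  · intro g hg
    by_contra hodd
    obtain ⟨y, hy, hyo⟩ := exists_invol_of_not_odd hodd
    apply hg
    have hy2 := Subgroup.mem_inf.mp hy
    have h1 := hinv _ hy2.1 hyo
    have h2 : g⁻¹ * y * g ∈ (T : Subgroup G) := hinv _ (mem_conjMap.mp hy2.2) (orderOf_conj_two' hyo g)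
    have h3 := hTs _ h1 hyo
    have h4 := hTs _ h2 (orderOf_conj_two' hyo g)
    rw [← conjMap_eq_iff_mem_normalizer]
    calc (T : Subgroup G).map (MulAut.conj g).toMonoidHom
        = (Subgroup.centralizer ({g⁻¹ * y * g} : Set G)).map (MulAut.conj g).toMonoidHom := by rw [h4]
      _ = Subgroup.centralizer ({y} : Set G) := conjMap_centralizer_singleton_se y g
      _ = T := h3

theorem cit_CIT (hnc : ¬ IsCyclic (T : Subgroup G)) (hnn : ¬ (T : Subgroup G).Normal)
    (hC : ∀ t : G, orderOf t = 2 → IsMulCommutative (Subgroup.centralizer ({t} : Set G)) ∧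
      ∀ c ∈ Subgroup.centralizer ({t} : Set G), c ^ 2 = 1) :
    CIT G (G ⧸ Subgroup.normalizer ((T : Subgroup G) : Set G)) := by
  obtain ⟨⟨t, htT, hto⟩, hTs, hinv⟩ := cit_basic T hnc hC
  refine ⟨inferInstance, strEmb_uniqueFix (cit_isStronglyEmbedded T hnc hnn hC), ?_, ?_, ⟨t, hto⟩⟩
  · intro a c ha hc
    rw [← pow_two]
    apply (hC a ha).2
    rw [Subgroup.mem_centralizer_singleton_iff]
    exact hc.eq
  · intro s t' x hs ht' hsx htx
    induction x using QuotientGroup.induction_on with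
    | H g =>
    rw [smul_mk_eq_iff] at hsx htx
    have h1 := hinv _ hsx (orderOf_conj_two' hs g)
    have h2 := hinv _ htx (orderOf_conj_two' ht' g)
    have h3 := hTs _ h1 (orderOf_conj_two' hs g)
    rw [← h3, Subgroup.mem_centralizer_singleton_iff] at h2
    show s * t' = t' * s
    calc s * t' = g * ((g⁻¹ * s * g) * (g⁻¹ * t' * g)) * g⁻¹ := by group
      _ = g * ((g⁻¹ * t' * g) * (g⁻¹ * s * g)) * g⁻¹ := by rw [h2]
      _ = t' * s := by group

/-- the elements of square one in the normalizer are the elements of `T` -/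
theorem cit_mem_iff (hnc : ¬ IsCyclic (T : Subgroup G))
    (hC : ∀ t : G, orderOf t = 2 → IsMulCommutative (Subgroup.centralizer ({t} : Set G)) ∧
      ∀ c ∈ Subgroup.centralizer ({t} : Set G), c ^ 2 = 1) (c : G) :
    c ∈ (T : Subgroup G) ↔
      (c • (QuotientGroup.mk 1 : G ⧸ Subgroup.normalizer ((T : Subgroup G) : Set G)) = QuotientGroup.mk 1
        ∧ c * c = 1) := by
  obtain ⟨⟨t, htT, hto⟩, hTs, hinv⟩ := cit_basic T hnc hC
  rw [smul_mk_one_eq_iff]
  constructor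
  · intro hc
    refine ⟨Subgroup.le_normalizer hc, ?_⟩
    rw [← pow_two]
    apply (hC t hto).2
    rw [hTs t htT hto]
    exact hc
  · rintro ⟨h1, h2⟩
    by_cases hc : c = 1
    · rw [hc]; exact Subgroup.one_mem _
    · exact hinv c h1 (orderOf_eq_two_of hc h2)

theorem cit_card (hnc : ¬ IsCyclic (T : Subgroup G))
    (hnn : ¬ (T : Subgroup G).Normal)
    (hC : ∀ t : G, orderOf t = 2 → IsMulCommutative (Subgroup.centralizer ({t} : Set G)) ∧
      ∀ c ∈ Subgroup.centralizer ({t} : Set G), c ^ 2 = 1) :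
    Nat.card T = Nat.card {t : G // orderOf t = 2 ∧
      t • (QuotientGroup.mk 1 : G ⧸ Subgroup.normalizer ((T : Subgroup G) : Set G)) = QuotientGroup.mk 1} + 1 := by
  rw [← (cit_CIT T hnc hnn hC).card_sq_eq_one]
  apply Nat.card_congr
  apply Equiv.subtypeEquivRight
  intro c
  exact cit_mem_iff T hnc hC c

theorem four_le_card_of_not_isCyclic (hnc : ¬ IsCyclic (T : Subgroup G)) : 4 ≤ Nat.card T := by
  obtain ⟨n, hn⟩ := T.2.exists_card_eq
  have hn' : Nat.card T = 2 ^ n := hn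
  rw [hn']
  rcases n with _ | _ | n
  · exfalso
    apply hnc
    have : Nat.card (T : Subgroup G) = 1 := by rw [hn]; rfl
    rw [Subgroup.card_eq_one] at this
    rw [this]
    infer_instance
  · exfalso
    apply hnc
    haveI : Fact (Nat.Prime 2) := ⟨Nat.prime_two⟩
    exact isCyclic_of_prime_card (p := 2) (by rw [hn]; rfl)
  · have : 2 ^ (n + 1 + 1) = 4 * 2 ^ n := by ring
    rw [this]
    have := Nat.one_le_two_pow (n := n)
    omega

end Concrete

end Cfsg.Agent.Lib.Helper8
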