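import Mathlib
import Cfsg.Agent.Lib.Helper20.Fitting
import Cfsg.Agent.S0126
import Cfsg.Agent.Lib.Helper8.Components

set_option autoImplicit false

namespace Cfsg.Agent.Lib.Helper8

section
variable {P E : Type*} [Group P] [AddCommGroup E] [DistribMulAction P E]

/-- the trace operator `1 + b + ... + b^(n-1)`. -/
noncomputable def trOp (E : Type*) [AddCommGroup E] [DistribMulAction P E] (b : P) (n : ℕ) : E →+ E :=
  ∑ i ∈ Finset.range n, DistribSMul.toAddMonoidHom E (b ^ i)

theorem trOp_apply (b : P) (n : ℕ) (v : E) : trOp E b n v = ∑ i ∈ Finset.range n, b ^ i • v := by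
  simp [trOp]

theorem smul_trOp_self (b : P) (n : ℕ) (hb : b ^ n = 1) (v : E) : b • trOp E b n v = trOp E b n v := by
  rw [trOp_apply, Finset.smul_sum]
  have h1 : ∑ i ∈ Finset.range n, b • b ^ i • v = ∑ i ∈ Finset.range n, b ^ (i + 1) • v := by
    apply Finset.sum_congr rfl
    intro i _
    rw [smul_smul, pow_succ']
  rw [h1]
  have h2 := Finset.sum_range_succ (fun i => b ^ i • v) n
  have h3 := Finset.sum_range_succ' (fun i => b ^ i • v) n
  rw [h2] at h3
  simp only [hb, pow_zero] at h3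
  exact (add_right_cancel h3).symm

theorem trOp_of_fixed (b : P) (n : ℕ) (v : E) (h : b • v = v) : trOp E b n v = n • v := by
  rw [trOp_apply]
  have : ∀ i : ℕ, b ^ i • v = v := by
    intro i
    induction i with
    | zero => simp
    | succ k ih => rw [pow_succ, mul_smul, h, ih]
  simp [this]

theorem smul_trOp (g b : P) (n : ℕ) (v : E) : g • trOp E b n v = trOp E (g * b * g⁻¹) n (g • v) := by
  rw [trOp_apply, trOp_apply, Finset.smul_sum]
  apply Finset.sum_congr rfl
  intro i _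
  rw [conj_pow, smul_smul, smul_smul]
  congr 1
  group

theorem smul_trOp_of_commute (g b : P) (hgb : Commute g b) (n : ℕ) (v : E) :
    g • trOp E b n v = trOp E b n (g • v) := by
  rw [smul_trOp]
  congr 1
  rw [hgb.eq]; group

theorem eq_zero_of_nsmul {p q : ℕ} (hp : p.Prime) (hq : q.Prime) (hpq : p ≠ q) (hE : ∀ e : E, q • e = 0)
    (w : E) (h : p • w = 0) : w = 0 := by
  have h1 := addOrderOf_dvd_of_nsmul_eq_zero h
  have h2 := addOrderOf_dvd_of_nsmul_eq_zero (hE w)
  have h3 : addOrderOf w ∣ 1 := by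
    have := Nat.dvd_gcd h1 h2
    rwa [(Nat.coprime_primes hp hq).mpr hpq] at this
  exact AddMonoid.addOrderOf_eq_one_iff.mp (Nat.dvd_one.mp h3)

theorem eq_of_nsmul_eq {p q : ℕ} (hp : p.Prime) (hq : q.Prime) (hpq : p ≠ q) (hE : ∀ e : E, q • e = 0)
    (w w' : E) (h : p • w = p • w') : w = w' := by
  have : p • (w - w') = 0 := by rw [smul_sub, h, sub_self]
  exact sub_eq_zero.mp (eq_zero_of_nsmul hp hq hpq hE _ this)

end

section
variable {P E : Type*} [Group P] [Finite P] [AddCommGroup E] [DistribMulAction P E]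

/-- if the stabilizer of `a + b` lies in those of `a` and `b` then (constant stabilizer orders) those agree. -/
theorem stabilizer_eq_of_add
    (hconst : ∀ a b : E, a ≠ 0 → b ≠ 0 →
      Nat.card (MulAction.stabilizer P a) = Nat.card (MulAction.stabilizer P b))
    (a b : E) (ha : a ≠ 0) (hb : b ≠ 0) (hab : a + b ≠ 0)
    (key : ∀ g : P, g • (a + b) = a + b → g • a = a ∧ g • b = b) :
    MulAction.stabilizer P a = MulAction.stabilizer P b := by
  have h1 : MulAction.stabilizer P (a + b) = MulAction.stabilizer P a :=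
    Subgroup.eq_of_le_of_card_ge (fun g hg => (key g hg).1) (hconst _ _ ha hab).le
  have h2 : MulAction.stabilizer P (a + b) = MulAction.stabilizer P b :=
    Subgroup.eq_of_le_of_card_ge (fun g hg => (key g hg).2) (hconst _ _ hb hab).le
  rw [← h1, h2]

variable [FaithfulSMul P E]

theorem exists_smul_ne (g : P) (hg : g ≠ 1) : ∃ v : E, g • v ≠ v := by
  by_contra h
  push Not at h
  apply hg
  apply FaithfulSMul.eq_of_smul_eq_smul (α := E)
  intro v
  rw [h v, one_smul]

/-- Claim A: central elements of order `p` act fixed point freely. -/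
theorem central_fpf {p q : ℕ} (hp : p.Prime) (hq : q.Prime) (hpq : p ≠ q) (hE : ∀ e : E, q • e = 0)
    (hconst : ∀ a b : E, a ≠ 0 → b ≠ 0 →
      Nat.card (MulAction.stabilizer P a) = Nat.card (MulAction.stabilizer P b))
    (z : P) (hz : z ∈ Subgroup.center P) (hzp : z ^ p = 1) (hz1 : z ≠ 1) (a : E) (ha : z • a = a) :
    a = 0 := by
  by_contra ha0
  obtain ⟨v, hv⟩ := exists_smul_ne (E := E) z hz1
  obtain ⟨b, hb⟩ : ∃ b, b = p • v - trOp E z p v := ⟨_, rfl⟩
  have hTb : trOp E z p b = 0 := by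
    rw [hb, map_sub, map_nsmul, trOp_of_fixed z p (trOp E z p v) (smul_trOp_self z p hzp v), sub_self]
  have hb0 : b ≠ 0 := by
    intro h0
    rw [h0] at hb
    have h1 : p • v = trOp E z p v := sub_eq_zero.mp hb.symm
    have h2 : z • (p • v) = p • v := by rw [h1]; exact smul_trOp_self z p hzp v
    apply hv
    apply eq_of_nsmul_eq hp hq hpq hE
    rw [← h2, smul_comm]
  have hint : ∀ w : E, z • w = w → trOp E z p w = 0 → w = 0 := by
    intro w h1 h2
    rw [trOp_of_fixed z p w h1] at h2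
    exact eq_zero_of_nsmul hp hq hpq hE w h2
  have hzb : z • b ≠ b := fun h => hb0 (hint b h hTb)
  have hcomm : ∀ g : P, Commute g z := fun g => (Subgroup.mem_center_iff.mp hz g)
  have key : ∀ g : P, g • (a + b) = a + b → g • a = a ∧ g • b = b := by
    intro g hg
    rw [smul_add] at hg
    have e : g • a - a = b - g • b := by
      rw [sub_eq_sub_iff_add_eq_add, hg, add_comm]
    have h1 : z • (g • a - a) = g • a - a := by
      rw [smul_sub, smul_smul, ← (hcomm g).eq, mul_smul, ha]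
    have h2 : trOp E z p (g • a - a) = 0 := by
      rw [e, map_sub, ← smul_trOp_of_commute g z (hcomm g), hTb, smul_zero, sub_zero]
    have h3 := hint _ h1 h2
    refine ⟨sub_eq_zero.mp h3, ?_⟩
    rw [h3] at e
    exact (sub_eq_zero.mp e.symm).symm
  have hab : a + b ≠ 0 := by
    intro h
    apply hzb
    have : b = -a := (neg_eq_of_add_eq_zero_right h).symm
    rw [this, smul_neg, ha]
  have := stabilizer_eq_of_add hconst a b ha0 hb0 hab key
  apply hzb
  have h1 : z ∈ MulAction.stabilizer P a := ha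
  rw [this] at h1
  exact h1

/-- Claim B: there is no normal elementary abelian subgroup of order `p ^ 2`. -/
theorem no_normal_rank_two {p q : ℕ} [Fact p.Prime] (hp2 : p ≠ 2) (hP : IsPGroup p P)
    (hq : q.Prime) (hpq : p ≠ q) (hE : ∀ e : E, q • e = 0)
    (hconst : ∀ a b : E, a ≠ 0 → b ≠ 0 →
      Nat.card (MulAction.stabilizer P a) = Nat.card (MulAction.stabilizer P b))
    (A : Subgroup P) (hAn : A.Normal) (hAe : Cfsg.IsElementaryAbelian p A)
    (hAc : Nat.card A = p ^ 2) : False := by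
  have hp : p.Prime := Fact.out
  haveI := hP.isNilpotent
  have hAne : A ≠ ⊥ := by
    intro h
    rw [h, Subgroup.card_bot] at hAc
    have : 1 < p ^ 2 := Nat.one_lt_pow (by norm_num) hp.one_lt
    omega
  obtain ⟨z, hzA, hzc, hz1⟩ := Cfsg.Agent.Lib.Helper20.normal_inf_center_ne_bot A hAne
  have hpow : ∀ a ∈ A, a ^ p = 1 := hAe.2
  have hzp := hpow z hzA
  have hcommA : ∀ a ∈ A, ∀ b ∈ A, Commute a b := by
    intro a ha b hb
    have := hAe.1.is_comm.comm ⟨a, ha⟩ ⟨b, hb⟩
    exact congrArg Subtype.val this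
  have hcomm : ∀ g : P, Commute g z := fun g => (Subgroup.mem_center_iff.mp hzc g)
  have hzord : orderOf z = p := orderOf_eq_prime hzp hz1
  have fpf : ∀ k, 0 < k → k < p → ∀ w : E, z ^ k • w = w → w = 0 := by
    intro k hk0 hkp w hw
    refine central_fpf hp hq hpq hE hconst (z ^ k) (Subgroup.pow_mem _ hzc k) ?_ ?_ w hw
    · rw [← pow_mul, mul_comm, pow_mul, hzp, one_pow]
    · exact pow_ne_one_of_lt_orderOf hk0.ne' (by rw [hzord]; exact hkp)
  have fpf1 : ∀ w : E, z • w = w → w = 0 := by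
    intro w hw
    exact fpf 1 one_pos hp.one_lt w (by rwa [pow_one])
  have decomp : ∀ a : P, ∀ v : E, ∑ i ∈ Finset.range p, trOp E (a * z ^ i) p v = p • v := by
    intro a v
    have h1 : ∀ i k : ℕ, (a * z ^ i) ^ k • v = a ^ k • (z ^ k) ^ i • v := by
      intro i k
      have hc : Commute a (z ^ i) := (hcomm a).pow_right i
      rw [hc.mul_pow, mul_smul, ← pow_mul, ← pow_mul, mul_comm i k]
    simp only [trOp_apply, h1]
    rw [Finset.sum_comm]
    have h2 : ∀ k ∈ Finset.range p, ∑ i ∈ Finset.range p, a ^ k • (z ^ k) ^ i • v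
        = a ^ k • trOp E (z ^ k) p v := by
      intro k _
      rw [trOp_apply, Finset.smul_sum]
    rw [Finset.sum_congr rfl h2, Finset.sum_eq_single 0]
    · rw [pow_zero, pow_zero, one_smul, trOp_of_fixed 1 p v (one_smul _ _)]
    · intro k hk hk0
      have : trOp E (z ^ k) p v = 0 :=
        fpf k (Nat.pos_of_ne_zero hk0) (Finset.mem_range.mp hk) _
          (smul_trOp_self (z ^ k) p (by rw [← pow_mul, mul_comm, pow_mul, hzp, one_pow]) v)
      rw [this, smul_zero]
    · intro h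
      exact absurd (Finset.mem_range.mpr hp.pos) h
  -- vectors fixed by two independent elements of A vanish
  have fixA : ∀ w : E, ∀ b ∈ A, ∀ c ∈ A, b ≠ 1 → c ∉ Subgroup.zpowers b → b • w = w → c • w = w →
      w = 0 := by
    intro w b hb c hc hb1 hcb hbw hcw
    apply fpf1
    obtain ⟨H, hH⟩ : ∃ H, H = MulAction.stabilizer P w ⊓ A := ⟨_, rfl⟩
    have hHA : H ≤ A := hH ▸ inf_le_right
    have hbH : Subgroup.zpowers b ≤ H := by
      rw [Subgroup.zpowers_le, hH]; exact ⟨hbw, hb⟩
    have hcH : c ∈ H := by rw [hH]; exact ⟨hcw, hc⟩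
    have hlt : Subgroup.zpowers b < H := lt_of_le_of_ne hbH (fun h => hcb (h ▸ hcH))
    have hcard1 : Nat.card (Subgroup.zpowers b) = p := by
      rw [Nat.card_zpowers]; exact orderOf_eq_prime (hpow b hb) hb1
    have hcard2 : p < Nat.card H := by
      rw [← hcard1]
      exact card_lt_of_lt hlt
    have hdvd : Nat.card H ∣ p ^ 2 := hAc ▸ Subgroup.card_dvd_of_le hHA
    obtain ⟨k, hk, hk2⟩ := (Nat.dvd_prime_pow hp).mp hdvd
    have hk3 : k = 2 := by
      interval_cases k
      · rw [hk2] at hcard2; simp at hcard2; have := hp.pos; omega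
      · rw [hk2] at hcard2; simp at hcard2
      · rfl
    have hHeq : H = A := Subgroup.eq_of_le_of_card_ge hHA (by rw [hAc, hk2, hk3])
    have : z ∈ H := hHeq ▸ hzA
    rw [hH] at this
    exact this.1
  -- a nonzero vector
  obtain ⟨v0, hv0⟩ := exists_smul_ne (E := E) z hz1
  have hv00 : v0 ≠ 0 := by
    rintro rfl
    exact hv0 (smul_zero z)
  -- an element of A outside ⟨z⟩
  obtain ⟨a, haA, haz⟩ : ∃ a ∈ A, a ∉ Subgroup.zpowers z := by
    by_contra hcon
    push Not at hcon
    have h1 : A ≤ Subgroup.zpowers z := hcon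
    have h2 := Subgroup.card_le_of_le h1
    rw [hAc, Nat.card_zpowers, hzord] at h2
    have : p < p ^ 2 := by
      calc p = p ^ 1 := (pow_one p).symm
        _ < p ^ 2 := Nat.pow_lt_pow_right hp.one_lt (by norm_num)
    omega
  have hpv0 : p • v0 ≠ 0 := fun h => hv00 (eq_zero_of_nsmul hp hq hpq hE v0 h)
  obtain ⟨i, -, hi⟩ := Finset.exists_ne_zero_of_sum_ne_zero (by rw [decomp a v0]; exact hpv0)
  obtain ⟨a₁, ha₁⟩ : ∃ a₁, a₁ = a * z ^ i := ⟨_, rfl⟩
  rw [← ha₁] at hi
  have ha₁A : a₁ ∈ A := by rw [ha₁]; exact A.mul_mem haA (A.pow_mem hzA i)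
  have ha₁1 : a₁ ≠ 1 := by
    intro h
    apply haz
    rw [ha₁] at h
    rw [eq_inv_of_mul_eq_one_left h]
    exact Subgroup.inv_mem _ (Subgroup.pow_mem _ (Subgroup.mem_zpowers z) i)
  obtain ⟨v₁, hv₁⟩ : ∃ v₁, v₁ = trOp E a₁ p v0 := ⟨_, rfl⟩
  rw [← hv₁] at hi
  have hfix₁ : a₁ • v₁ = v₁ := by rw [hv₁]; exact smul_trOp_self a₁ p (hpow a₁ ha₁A) v0
  -- second vector
  obtain ⟨u, hu⟩ := exists_smul_ne (E := E) a₁ ha₁1
  obtain ⟨j, hj0, hjp, hj⟩ : ∃ j, 0 < j ∧ j < p ∧ trOp E (a₁ * z ^ j) p u ≠ 0 := by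
    by_contra hcon
    push Not at hcon
    have h1 := decomp a₁ u
    rw [Finset.sum_eq_single 0] at h1
    · rw [pow_zero, mul_one] at h1
      apply hu
      apply eq_of_nsmul_eq hp hq hpq hE
      rw [← h1, ← smul_comm, ← h1]
      exact smul_trOp_self a₁ p (hpow a₁ ha₁A) u
    · intro k hk hk0
      exact hcon k (Nat.pos_of_ne_zero hk0) (Finset.mem_range.mp hk)
    · intro h
      exact absurd (Finset.mem_range.mpr hp.pos) h
  obtain ⟨a₂, ha₂⟩ : ∃ a₂, a₂ = a₁ * z ^ j := ⟨_, rfl⟩
  rw [← ha₂] at hj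
  have ha₂A : a₂ ∈ A := by rw [ha₂]; exact A.mul_mem ha₁A (A.pow_mem hzA j)
  obtain ⟨v₂, hv₂⟩ : ∃ v₂, v₂ = trOp E a₂ p u := ⟨_, rfl⟩
  rw [← hv₂] at hj
  have hfix₂ : a₂ • v₂ = v₂ := by rw [hv₂]; exact smul_trOp_self a₂ p (hpow a₂ ha₂A) u
  have hpair : ∀ w : E, a₁ • w = w → a₂ • w = w → w = 0 := by
    intro w h1 h2
    apply fpf j hj0 hjp
    rw [ha₂, mul_smul] at h2
    have h3 : a₁⁻¹ • (a₁ • z ^ j • w) = a₁⁻¹ • w := by rw [h2]
    rw [inv_smul_smul] at h3
    rw [h3, inv_smul_eq_iff, h1]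
  have ha₂1 : a₂ ≠ 1 := by
    intro h
    apply hi
    apply hpair v₁ hfix₁
    rw [h, one_smul]
  have hT12 : trOp E a₁ p v₂ = 0 := by
    apply hpair
    · exact smul_trOp_self a₁ p (hpow a₁ ha₁A) v₂
    · rw [smul_trOp_of_commute a₂ a₁ (hcommA a₂ ha₂A a₁ ha₁A), hfix₂]
  have key : ∀ g : P, g • (v₁ + v₂) = v₁ + v₂ → g • v₁ = v₁ ∧ g • v₂ = v₂ := by
    intro g hg
    obtain ⟨c, hc⟩ : ∃ c, c = g⁻¹ * a₁ * g := ⟨_, rfl⟩
    have hcA : c ∈ A := by
      have := hAn.conj_mem a₁ ha₁A g⁻¹
      rw [inv_inv] at this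
      rw [hc]; exact this
    have hgc : g * c * g⁻¹ = a₁ := by rw [hc]; group
    have e1 : trOp E a₁ p (g • (v₁ + v₂)) = p • v₁ := by
      rw [hg, map_add, hT12, add_zero, trOp_of_fixed a₁ p v₁ hfix₁]
    have e2 : trOp E a₁ p (g • (v₁ + v₂)) = g • trOp E c p v₁ + g • trOp E c p v₂ := by
      rw [smul_add, map_add, smul_trOp, smul_trOp, hgc]
    rw [e1] at e2
    have hc1 : c ∈ Subgroup.zpowers a₁ → trOp E c p v₁ = p • v₁ := by
      intro h
      apply trOp_of_fixed
      have : Subgroup.zpowers a₁ ≤ MulAction.stabilizer P v₁ := by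
        rw [Subgroup.zpowers_le]; exact hfix₁
      exact this h
    have hc1' : c ∉ Subgroup.zpowers a₁ → trOp E c p v₁ = 0 := by
      intro h
      apply fixA _ a₁ ha₁A c hcA ha₁1 h
      · rw [smul_trOp_of_commute a₁ c (hcommA a₁ ha₁A c hcA), hfix₁]
      · exact smul_trOp_self c p (hpow c hcA) v₁
    have hc2 : c ∈ Subgroup.zpowers a₂ → trOp E c p v₂ = p • v₂ := by
      intro h
      apply trOp_of_fixed
      have : Subgroup.zpowers a₂ ≤ MulAction.stabilizer P v₂ := by
        rw [Subgroup.zpowers_le]; exact hfix₂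
      exact this h
    have hc2' : c ∉ Subgroup.zpowers a₂ → trOp E c p v₂ = 0 := by
      intro h
      apply fixA _ a₂ ha₂A c hcA ha₂1 h
      · rw [smul_trOp_of_commute a₂ c (hcommA a₂ ha₂A c hcA), hfix₂]
      · exact smul_trOp_self c p (hpow c hcA) v₂
    rw [smul_add] at hg
    by_cases h1 : c ∈ Subgroup.zpowers a₁ <;> by_cases h2 : c ∈ Subgroup.zpowers a₂
    · exfalso
      rw [hc1 h1, hc2 h2, ← smul_add, ← smul_add, smul_comm, smul_add, hg] at e2
      have := eq_of_nsmul_eq hp hq hpq hE _ _ e2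
      apply hj
      simpa using this
    · rw [hc1 h1, hc2' h2, smul_zero, add_zero, smul_comm] at e2
      have h3 := eq_of_nsmul_eq hp hq hpq hE _ _ e2
      refine ⟨h3.symm, ?_⟩
      rw [← h3] at hg
      exact add_left_cancel hg
    · exfalso
      rw [hc1' h1, hc2 h2, smul_zero, zero_add, smul_comm] at e2
      have h3 := eq_of_nsmul_eq hp hq hpq hE _ _ e2
      -- v₁ = g • v₂, so g • v₁ = v₂
      have h4 : g • v₁ = v₂ := by
        rw [← h3, add_comm] at hg
        exact add_left_cancel hg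
      have h5 : g ^ 2 • v₁ = v₁ := by rw [pow_two, mul_smul, h4, ← h3]
      have hodd : Odd (orderOf g) := by
        obtain ⟨k, hk⟩ := (IsPGroup.iff_orderOf.mp hP) g
        rw [hk]
        exact (hp.odd_of_ne_two hp2).pow
      obtain ⟨m, hm⟩ := hodd
      have h6 : g • v₁ = v₁ := by
        have h7 : g = (g ^ 2) ^ (m + 1) := by
          rw [← pow_mul]
          have : 2 * (m + 1) = orderOf g + 1 := by omega
          rw [this, pow_succ, pow_orderOf_eq_one, one_mul]
        have h8 : Subgroup.zpowers (g ^ 2) ≤ MulAction.stabilizer P v₁ := by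
          rw [Subgroup.zpowers_le]; exact h5
        have h9 : g ∈ Subgroup.zpowers (g ^ 2) :=
          Subgroup.mem_zpowers_iff.mpr ⟨((m + 1 : ℕ) : ℤ), by rw [zpow_natCast]; exact h7.symm⟩
        exact h8 h9
      apply hi
      apply hpair v₁ hfix₁
      have : v₁ = v₂ := by rw [← h4, h6]
      rw [this]; exact hfix₂
    · exfalso
      rw [hc1' h1, hc2' h2, smul_zero, add_zero] at e2
      exact hi (eq_zero_of_nsmul hp hq hpq hE _ e2)
  have hsum : v₁ + v₂ ≠ 0 := by
    intro h
    apply hi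
    apply hpair v₁ hfix₁
    have : v₁ = -v₂ := eq_neg_of_add_eq_zero_left h
    rw [this, smul_neg, hfix₂]
  have hst := stabilizer_eq_of_add hconst v₁ v₂ hi hj hsum key
  apply hj
  apply hpair v₂ _ hfix₂
  have h1 : a₁ ∈ MulAction.stabilizer P v₁ := hfix₁
  rw [hst] at h1
  exact h1

theorem const_stab_main [Finite E] {p q : ℕ} [Fact p.Prime] (hp2 : p ≠ 2) (hP : IsPGroup p P)
    (hq : q.Prime) (hE : ∀ e : E, q • e = 0)
    (hconst : ∀ a b : E, a ≠ 0 → b ≠ 0 →
      Nat.card (MulAction.stabilizer P a) = Nat.card (MulAction.stabilizer P b)) :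
    IsCyclic P ∧ ∀ g : P, g ≠ 1 → ∀ a : E, g • a = a → a = 0 := by
  have hp : p.Prime := Fact.out
  by_cases hpq : p = q
  · subst hpq
    -- P is trivial
    have htriv : ∀ g : P, g = 1 := by
      intro g
      by_contra hg
      obtain ⟨v, hv⟩ := exists_smul_ne (E := E) g hg
      have hv0 : v ≠ 0 := by
        rintro rfl
        exact hv (smul_zero g)
      have hdvd : p ∣ Nat.card E := by
        have h1 : addOrderOf v = p := addOrderOf_eq_prime (hE v) hv0
        rw [← h1]
        exact addOrderOf_dvd_natCard v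
      obtain ⟨b, hb, hb0⟩ := hP.exists_fixed_point_of_prime_dvd_card_of_fixed_point E hdvd
        (a := (0 : E)) (fun g => smul_zero g)
      have h1 : MulAction.stabilizer P b = ⊤ := by
        rw [eq_top_iff]
        intro x _
        exact hb x
      have h2 : MulAction.stabilizer P v = ⊤ := by
        apply Subgroup.eq_of_le_of_card_ge le_top
        rw [hconst v b hv0 (Ne.symm hb0), h1]
      have : g ∈ MulAction.stabilizer P v := by rw [h2]; trivial
      exact hv this
    haveI : Subsingleton P := ⟨fun a b => by rw [htriv a, htriv b]⟩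
    exact ⟨inferInstance, fun g hg => absurd (htriv g) hg⟩
  · have hcyc : IsCyclic P := by
      by_contra hnc
      obtain ⟨A, hAn, hAe, hAc⟩ := Cfsg.Agent.S0126.result hp2 hP hnc
      exact no_normal_rank_two hp2 hP hq hpq hE hconst A hAn hAe hAc
    refine ⟨hcyc, ?_⟩
    intro g hg a ha
    -- a power of g of order p
    obtain ⟨k, hk⟩ := (IsPGroup.iff_orderOf.mp hP) g
    have hk0 : k ≠ 0 := by
      rintro rfl
      rw [pow_zero, orderOf_eq_one_iff] at hk
      exact hg hk
    obtain ⟨m, rfl⟩ := Nat.exists_eq_succ_of_ne_zero hk0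
    have hcommP : ∀ x y : P, x * y = y * x := by
      intro x y
      letI := hcyc.commGroup
      exact mul_comm x y
    refine central_fpf hp hq hpq hE hconst (g ^ (p ^ m)) ?_ ?_ ?_ a ?_
    · rw [Subgroup.mem_center_iff]
      intro x
      exact hcommP _ _
    · rw [← pow_mul, ← pow_succ, ← hk, pow_orderOf_eq_one]
    · apply pow_ne_one_of_lt_orderOf (pow_pos hp.pos m).ne'
      rw [hk]
      exact Nat.pow_lt_pow_right hp.one_lt (Nat.lt_succ_self m)
    · have : Subgroup.zpowers g ≤ MulAction.stabilizer P a := by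
        rw [Subgroup.zpowers_le]; exact ha
      exact this (Subgroup.pow_mem _ (Subgroup.mem_zpowers g) _)

end

end Cfsg.Agent.Lib.Helper8
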