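import Mathlib

set_option autoImplicit false

namespace Cfsg.Agent.Lib.Helper8

theorem isCoprime_odd_two_pow (w : ℤ) (k : ℕ) : IsCoprime (2 * w + 1) ((2 : ℤ) ^ k) := by
  apply IsCoprime.pow_right
  exact ⟨1, -w, by ring⟩

theorem half_cases (M x : ℤ) (h : M ∣ x) : 2 * M ∣ x ∨ 2 * M ∣ x - M := by
  obtain ⟨d, rfl⟩ := h
  rcases Int.even_or_odd' d with ⟨e, rfl | rfl⟩
  · left; exact ⟨e, by ring⟩
  · right; exact ⟨e, by ring⟩

theorem sqrt_one_mod (l : ℕ) (r : ℤ) (h1 : (2 : ℤ) ^ (l + 2) ∣ r * r - 1) :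
    (2 : ℤ) ^ (l + 2) ∣ r - 1 ∨ (2 : ℤ) ^ (l + 2) ∣ r + 1 ∨
    (2 : ℤ) ^ (l + 2) ∣ r - (1 + 2 ^ (l + 1)) ∨ (2 : ℤ) ^ (l + 2) ∣ r - (2 ^ (l + 1) - 1) := by
  have hN : (2 : ℤ) ^ (l + 2) = 2 * 2 ^ (l + 1) := by ring
  have hM : (2 : ℤ) ^ (l + 1) = 2 * 2 ^ l := by ring
  have hodd : ∃ q, r = 2 * q + 1 := by
    rcases Int.even_or_odd' r with ⟨q, rfl | rfl⟩
    · exfalso
      obtain ⟨c, hc⟩ := h1
      have h4 : (2 : ℤ) ^ (l + 2) = 2 * (2 * 2 ^ l) := by ring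
      rw [h4] at hc
      have h5 : (2 : ℤ) ∣ 1 := ⟨2 * q * q - 2 * 2 ^ l * c, by linear_combination -hc⟩
      omega
    · exact ⟨q, rfl⟩
  obtain ⟨q, rfl⟩ := hodd
  have h2 : (2 : ℤ) ^ l ∣ q * (q + 1) := by
    obtain ⟨c, hc⟩ := h1
    refine ⟨c, ?_⟩
    have h4 : (2 : ℤ) ^ (l + 2) = 4 * 2 ^ l := by ring
    rw [h4] at hc
    have : 4 * (q * (q + 1)) = 4 * (2 ^ l * c) := by linear_combination hc
    exact mul_left_cancel₀ (by norm_num) this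
  have h3 : (2 : ℤ) ^ l ∣ q ∨ (2 : ℤ) ^ l ∣ q + 1 := by
    rcases Int.even_or_odd' q with ⟨w, rfl | rfl⟩
    · left
      exact (isCoprime_odd_two_pow w l).symm.dvd_of_dvd_mul_right h2
    · right
      exact (isCoprime_odd_two_pow w l).symm.dvd_of_dvd_mul_left h2
  rcases h3 with h | h
  · have h5 : (2 : ℤ) ^ (l + 1) ∣ (2 * q + 1) - 1 := by
      obtain ⟨c, rfl⟩ := h
      exact ⟨c, by rw [hM]; ring⟩
    rcases half_cases _ _ h5 with h6 | h6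
    · left; rwa [hN]
    · right; right; left
      rw [hN]
      convert h6 using 1
      ring
  · have h5 : (2 : ℤ) ^ (l + 1) ∣ (2 * q + 1) + 1 := by
      obtain ⟨c, hc⟩ := h
      exact ⟨c, by rw [hM]; linear_combination 2 * hc⟩
    rcases half_cases _ _ h5 with h6 | h6
    · right; left; rwa [hN]
    · right; right; right
      rw [hN]
      convert h6 using 1
      ring

theorem arith646 (l : ℕ) (r s : ℤ) (h1 : (2 : ℤ) ^ (l + 2) ∣ r * r - 1)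
    (h2 : ¬ (2 : ℤ) ^ (l + 2) ∣ r - 1) (h3 : (2 : ℤ) ^ (l + 2) ∣ s * r - s) :
    ∃ j : ℤ,
      ((2 : ℤ) ^ (l + 2) ∣ r + 1 ∧ ((2 : ℤ) ^ (l + 2) ∣ r * j + s + j ∨
        (2 : ℤ) ^ (l + 2) ∣ (r * j + s + j) - 2 ^ (l + 1))) ∨
      (1 ≤ l ∧ (2 : ℤ) ^ (l + 2) ∣ r - (1 + 2 ^ (l + 1)) ∧ (2 : ℤ) ^ (l + 2) ∣ r * j + s + j) ∨
      (1 ≤ l ∧ (2 : ℤ) ^ (l + 2) ∣ r - (2 ^ (l + 1) - 1) ∧ (2 : ℤ) ^ (l + 2) ∣ r * j + s + j) := by
  have hN : (2 : ℤ) ^ (l + 2) = 2 * 2 ^ (l + 1) := by ring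
  have hMne : (2 : ℤ) ^ (l + 1) ≠ 0 := by positivity
  -- case `r ≡ -1`
  have caseA : (2 : ℤ) ^ (l + 2) ∣ r + 1 → ∃ j : ℤ,
      ((2 : ℤ) ^ (l + 2) ∣ r + 1 ∧ ((2 : ℤ) ^ (l + 2) ∣ r * j + s + j ∨
        (2 : ℤ) ^ (l + 2) ∣ (r * j + s + j) - 2 ^ (l + 1))) := by
    intro h
    refine ⟨0, h, ?_⟩
    have h4 : (2 : ℤ) ^ (l + 1) ∣ s := by
      obtain ⟨c, hc⟩ := h
      obtain ⟨d, hd⟩ := h3
      refine ⟨c * s - d, ?_⟩
      have hr : r = 2 ^ (l + 2) * c - 1 := by linear_combination hc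
      rw [hr, hN] at hd
      have : 2 * s = 2 * (2 ^ (l + 1) * (c * s - d)) := by linear_combination -hd
      exact mul_left_cancel₀ (by norm_num) this
    have := half_cases _ _ h4
    rw [hN]
    simpa using this
  rcases sqrt_one_mod l r h1 with h | h | h | h
  · exact absurd h h2
  · obtain ⟨j, hj⟩ := caseA h
    exact ⟨j, Or.inl hj⟩
  · rcases Nat.eq_zero_or_pos l with rfl | hl
    · obtain ⟨j, hj⟩ := caseA (by
        obtain ⟨c, hc⟩ := h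
        exact ⟨c + 1, by norm_num at hc ⊢; linear_combination hc⟩)
      exact ⟨j, Or.inl hj⟩
    · obtain ⟨k, rfl⟩ : ∃ k, l = k + 1 := ⟨l - 1, by omega⟩
      -- `M = 2^(k+2)`, `M' = 2^(k+1)`
      obtain ⟨c, hc⟩ := h
      have hr : r = 1 + 2 ^ (k + 1 + 1) + 2 ^ (k + 1 + 2) * c := by linear_combination hc
      have hs : ∃ t, s = 2 * t := by
        obtain ⟨d, hd⟩ := h3
        rw [hr, hN] at hd
        have h5 : (2 : ℤ) ^ (k + 1 + 1) * (s * (1 + 2 * c)) = 2 ^ (k + 1 + 1) * (2 * d) := by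
          linear_combination hd
        have h6 := mul_left_cancel₀ hMne h5
        rcases Int.even_or_odd' s with ⟨t, ht | ht⟩
        · exact ⟨t, ht⟩
        · exfalso
          rw [ht] at h6
          have h7 : (2 : ℤ) ∣ 1 := ⟨d - t - 2 * t * c - c, by linear_combination h6⟩
          omega
      obtain ⟨t, rfl⟩ := hs
      obtain ⟨u, v, huv⟩ := isCoprime_odd_two_pow (2 ^ k) (k + 1 + 1)
      refine ⟨-t * u, Or.inr (Or.inl ⟨hl, ⟨c, by linear_combination hc⟩, ?_⟩)⟩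
      refine ⟨t * v - t * u * c, ?_⟩
      rw [hr]
      have e1 : (2 : ℤ) ^ (k + 1 + 2) = 8 * 2 ^ k := by ring
      have e2 : (2 : ℤ) ^ (k + 1 + 1) = 4 * 2 ^ k := by ring
      rw [e2] at huv
      rw [e1, e2]
      linear_combination (-2 * t) * huv
  · rcases Nat.eq_zero_or_pos l with rfl | hl
    · exfalso
      apply h2
      obtain ⟨c, hc⟩ := h
      exact ⟨c, by norm_num at hc ⊢; linear_combination hc⟩
    · obtain ⟨k, rfl⟩ : ∃ k, l = k + 1 := ⟨l - 1, by omega⟩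
      obtain ⟨c, hc⟩ := h
      have hr : r = 2 ^ (k + 1 + 1) - 1 + 2 ^ (k + 1 + 2) * c := by linear_combination hc
      have h4 : (2 : ℤ) ^ (k + 1 + 1) ∣ s := by
        obtain ⟨d, hd⟩ := h3
        rw [hr] at hd
        have e1 : (2 : ℤ) ^ (k + 1 + 2) = 8 * 2 ^ k := by ring
        have e2 : (2 : ℤ) ^ (k + 1 + 1) = 4 * 2 ^ k := by ring
        have h5 : (2 : ℤ) ^ (k + 1 + 1) ∣ (2 * (2 ^ k - 1) + 1) * s := by
          refine ⟨d - s * c, ?_⟩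
          rw [e1, e2] at hd
          rw [e2]
          have : 2 * ((2 * (2 ^ k - 1) + 1) * s) = 2 * (4 * 2 ^ k * (d - s * c)) := by
            linear_combination hd
          exact mul_left_cancel₀ (by norm_num) this
        exact (isCoprime_odd_two_pow (2 ^ k - 1) (k + 1 + 1)).symm.dvd_of_dvd_mul_left h5
      rcases half_cases _ _ h4 with h6 | h6
      · refine ⟨0, Or.inr (Or.inr ⟨hl, ⟨c, by linear_combination hc⟩, ?_⟩)⟩
        rw [hN]; simpa using h6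
      · refine ⟨1, Or.inr (Or.inr ⟨hl, ⟨c, by linear_combination hc⟩, ?_⟩)⟩
        obtain ⟨d, hd⟩ := h6
        refine ⟨d + 1 + c, ?_⟩
        rw [hr]
        have e1 : (2 : ℤ) ^ (k + 1 + 2) = 2 * 2 ^ (k + 1 + 1) := by ring
        rw [e1]
        linear_combination hd

end Cfsg.Agent.Lib.Helper8
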