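import Mathlib
import Cfsg.Agent.Lib.Helper8.Isolated

set_option autoImplicit false

namespace Cfsg.Agent.Lib.Helper8

variable {G : Type*} [Group G]

/-- `t` is a conjugate of `z`. -/
def ConjOf (z t : G) : Prop := ∃ g : G, g * z * g⁻¹ = t

theorem ConjOf.conj {z t : G} (h : ConjOf z t) (a : G) : ConjOf z (a * t * a⁻¹) := by
  obtain ⟨g, rfl⟩ := h
  exact ⟨a * g, by group⟩

theorem ConjOf.isolated {z t : G} (h : ConjOf z t) (hz : Cfsg.IsIsolatedInvolution z) :
    Cfsg.IsIsolatedInvolution t := by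
  obtain ⟨g, rfl⟩ := h
  exact isolated_conj hz g

theorem ConjOf.trans_symm {z t t' : G} (h : ConjOf z t) (h' : ConjOf z t') : ConjOf t t' := by
  obtain ⟨g, rfl⟩ := h
  obtain ⟨g', rfl⟩ := h'
  exact ⟨g' * g⁻¹, by group⟩

theorem card_conjOf_mul_card_centralizer [Finite G] (g : G) :
    Nat.card G = Nat.card (Subgroup.centralizer ({g} : Set G)) * Nat.card {h : G // ConjOf g h} := by
  have e1 := MulAction.orbitEquivQuotientStabilizer (ConjAct G) g
  have h1 := Subgroup.card_eq_card_quotient_mul_card_subgroup (MulAction.stabilizer (ConjAct G) g)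
  have h2 : Nat.card (MulAction.stabilizer (ConjAct G) g)
      = Nat.card (Subgroup.centralizer ({g} : Set G)) := by
    rw [Subgroup.centralizer_eq_comap_stabilizer]
    exact Nat.card_congr (Equiv.subtypeEquiv ConjAct.ofConjAct.toEquiv (by intro a; rfl))
  have h3 : Nat.card {h : G // ConjOf g h} = Nat.card (MulAction.orbit (ConjAct G) g) := by
    apply Nat.card_congr
    apply Equiv.subtypeEquivRight
    intro h
    rw [ConjAct.mem_orbit_conjAct, isConj_comm, isConj_iff]
    rfl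
  rw [h3, Nat.card_congr e1, ← h2, mul_comm, ← h1]
  exact (Nat.card_congr ConjAct.ofConjAct.toEquiv).symm

/-- The odd order elements inverted by `z` commuting with `a ∈ C(z)` correspond to the conjugates of `z`
commuting with `a`. -/
theorem card_inverted_commute [Finite G] {z : G} (hz : Cfsg.IsIsolatedInvolution z) (a : G)
    (ha : Commute a z) :
    Nat.card {k : G // Odd (orderOf k) ∧ z * k * z⁻¹ = k⁻¹ ∧ Commute k a}
      = Nat.card {t : G // ConjOf z t ∧ Commute t a} := by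
  have haz : a * z * a⁻¹ = z := by rw [ha.eq]; group
  have haz' : a⁻¹ * z * a = z := by
    calc a⁻¹ * z * a = a⁻¹ * (z * a) := by group
      _ = a⁻¹ * (a * z) := by rw [ha.eq]
      _ = z := by group
  refine Nat.card_congr (Equiv.ofBijective
    (fun k => ⟨k.1 * z * k.1⁻¹, ⟨k.1, rfl⟩, ?_⟩) ⟨?_, ?_⟩)
  · obtain ⟨k, -, -, hk⟩ := k
    show k * z * k⁻¹ * a = a * (k * z * k⁻¹)
    have h1 : k⁻¹ * a = a * k⁻¹ := (hk.inv_left).eq
    calc k * z * k⁻¹ * a = k * z * (k⁻¹ * a) := by group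
      _ = k * (z * a) * k⁻¹ := by rw [h1]; group
      _ = (k * a) * z * k⁻¹ := by rw [← ha.eq]; group
      _ = a * (k * z * k⁻¹) := by rw [hk.eq]; group
  · rintro ⟨k, hk1, hk2, hk3⟩ ⟨k', hk1', hk2', hk3'⟩ h
    simp only [Subtype.mk.injEq] at h
    exact Subtype.ext (inverted_unique hk1 hk1' hk2 hk2' h)
  · rintro ⟨t, ⟨g, rfl⟩, ht⟩
    obtain ⟨k, -, hk1, hk2, hk3⟩ := isolated_exists_k hz g
    refine ⟨⟨k, hk1, hk2, ?_⟩, Subtype.ext hk3⟩
    -- a k a⁻¹ = k by uniqueness
    have h1 : Odd (orderOf (a * k * a⁻¹)) := by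
      have : a * k * a⁻¹ = (MulAut.conj a).toMonoidHom k := rfl
      rw [this, orderOf_injective (MulAut.conj a).toMonoidHom (MulAut.conj a).injective]
      exact hk1
    have h2 : z * (a * k * a⁻¹) * z⁻¹ = (a * k * a⁻¹)⁻¹ := by
      calc z * (a * k * a⁻¹) * z⁻¹ = a * ((a⁻¹ * z * a) * k * (a⁻¹ * z * a)⁻¹) * a⁻¹ := by group
        _ = a * k⁻¹ * a⁻¹ := by rw [haz', hk2]
        _ = (a * k * a⁻¹)⁻¹ := by group
    have h3 : (a * k * a⁻¹) * z * (a * k * a⁻¹)⁻¹ = k * z * k⁻¹ := by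
      calc (a * k * a⁻¹) * z * (a * k * a⁻¹)⁻¹ = a * (k * (a⁻¹ * z * a) * k⁻¹) * a⁻¹ := by group
        _ = a * (g * z * g⁻¹) * a⁻¹ := by rw [haz', hk3]
        _ = (g * z * g⁻¹ * a) * a⁻¹ := by rw [ht.eq]
        _ = k * z * k⁻¹ := by rw [hk3]; group
    have h4 := inverted_unique h1 hk1 h2 hk2 h3
    show k * a = a * k
    calc k * a = (a * k * a⁻¹) * a := by rw [h4]
      _ = a * k := by group

/-- existence part of the decomposition. -/
theorem exists_conjOf_commute [Finite G] {z s t : G} (hz : Cfsg.IsIsolatedInvolution z)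
    (hs : orderOf s = 2) (hsΩ : ¬ ConjOf z s) (ht : ConjOf z t) :
    ∃ t₀, ConjOf z t₀ ∧ Commute t₀ s ∧ Commute t (s * t₀) := by
  have hti := ht.isolated hz
  have hss := sq_of_orderOf_two hs
  have htt := sq_of_orderOf_two hti.1
  obtain ⟨d, hd⟩ : ∃ d, d = s * t := ⟨_, rfl⟩
  have hdt : d * t = s := by rw [hd, mul_assoc, htt, mul_one]
  have hinv_t : t * d * t⁻¹ = d⁻¹ := by rw [hd]; exact invol_inverts_mul htt hss
  have hinv_s : s * d * s⁻¹ = d⁻¹ := by rw [hd]; exact invol_inverts_mul' htt hss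
  have hpos : 0 < orderOf d := orderOf_pos d
  rcases Nat.even_or_odd' (orderOf d) with ⟨m, hm | hm⟩
  · have hm0 : 0 < m := by omega
    have hw1 : d ^ m ≠ 1 := by
      intro h
      have := orderOf_le_of_pow_eq_one hm0 h
      omega
    have hw2 : d ^ m * d ^ m = 1 := by
      rw [← pow_add, ← two_mul, ← hm, pow_orderOf_eq_one]
    have hwinv : (d ^ m)⁻¹ = d ^ m := inv_eq_of_mul_eq_one_left hw2
    have hct : t * d ^ m = d ^ m * t := by
      calc t * d ^ m = (t * d ^ m * t⁻¹) * t := by group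
        _ = d ^ m * t := by rw [inverts_pow hinv_t, hwinv]
    have hcs : s * d ^ m = d ^ m * s := by
      calc s * d ^ m = (s * d ^ m * s⁻¹) * s := by group
        _ = d ^ m * s := by rw [inverts_pow hinv_s, hwinv]
    rcases Nat.even_or_odd' m with ⟨j, rfl | rfl⟩
    · exfalso
      have h1 := conj_by_pow_of_inverts hinv_t j
      have h2 : Commute t (d ^ j * t * (d ^ j)⁻¹) := by
        rw [h1]
        show t * (d ^ (2 * j) * t) = d ^ (2 * j) * t * t
        rw [← mul_assoc, hct]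
      have h3 := hti.2 _ h2
      rw [h1] at h3
      exact hw1 (mul_eq_right.mp h3)
    · have h1 := conj_by_pow_of_inverts hinv_t (j + 1)
      have h2 : d ^ (2 * (j + 1)) * t = d ^ (2 * j + 1) * s := by
        have : 2 * (j + 1) = (2 * j + 1) + 1 := by ring
        rw [this, pow_succ, mul_assoc, hdt]
      refine ⟨d ^ (2 * j + 1) * s, ?_, ?_, ?_⟩
      · rw [← h2, ← h1]
        exact ht.conj _
      · show d ^ (2 * j + 1) * s * s = s * (d ^ (2 * j + 1) * s)
        rw [← mul_assoc, hcs]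
      · have : s * (d ^ (2 * j + 1) * s) = d ^ (2 * j + 1) := by
          rw [← mul_assoc, hcs, mul_assoc, hss, mul_one]
        rw [this]
        exact hct
  · exfalso
    apply hsΩ
    have h1 := conj_by_pow_of_inverts hinv_t (m + 1)
    have h2 : d ^ (2 * (m + 1)) * t = s := by
      have : 2 * (m + 1) = orderOf d + 1 := by omega
      rw [this, pow_succ, pow_orderOf_eq_one, one_mul, hdt]
    rw [← h2, ← h1]
    exact ht.conj _

/-- uniqueness part of the decomposition. -/
theorem conjOf_commute_unique [Finite G] {z s t t₀ t₁ : G} (hz : Cfsg.IsIsolatedInvolution z)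
    (hs : orderOf s = 2) (ht : ConjOf z t)
    (h0 : ConjOf z t₀) (h0s : Commute t₀ s) (h0t : Commute t (s * t₀))
    (h1 : ConjOf z t₁) (h1s : Commute t₁ s) (h1t : Commute t (s * t₁)) : t₀ = t₁ := by
  have hss := sq_of_orderOf_two hs
  have key : ∀ t' : G, ConjOf z t' → Commute t' s → Commute t (s * t') →
      ∃ r : ℕ, Odd r ∧ ∀ n : ℕ, Odd n → (s * t) ^ (r * n) = s * t' := by
    intro t' h' h's h't
    have hti := ht.isolated hz
    have ht't' := sq_of_orderOf_two (h'.isolated hz).1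
    obtain ⟨g, hg⟩ := ht.trans_symm h'
    have hodd := isolated_odd_order hti g
    rw [hg] at hodd
    refine ⟨orderOf (t' * t), hodd, ?_⟩
    intro n hn
    have e1 : s * t = (s * t') * (t' * t) := by
      calc s * t = s * (t' * t') * t := by rw [ht't', mul_one]
        _ = _ := by group
    have hc1 : Commute (s * t') t' := by
      show s * t' * t' = t' * (s * t')
      rw [← mul_assoc, h's.eq]
    have hc : Commute (s * t') (t' * t) := hc1.mul_right h't.symm
    have hu2 : (s * t') * (s * t') = 1 := by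
      calc (s * t') * (s * t') = s * (t' * s) * t' := by group
        _ = s * s * (t' * t') := by rw [h's.eq]; group
        _ = 1 := by rw [hss, ht't', one_mul]
    have hodd2 : Odd (orderOf (t' * t) * n) := hodd.mul hn
    obtain ⟨c, hc'⟩ := hodd2
    rw [e1, hc.mul_pow, pow_mul (t' * t), pow_orderOf_eq_one, one_pow, mul_one, hc', pow_succ, pow_mul,
      pow_two, hu2, one_pow, one_mul]
  obtain ⟨r0, hr0, k0⟩ := key t₀ h0 h0s h0t
  obtain ⟨r1, hr1, k1⟩ := key t₁ h1 h1s h1t
  have e0 := k0 r1 hr1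
  have e1 := k1 r0 hr0
  rw [mul_comm] at e1
  rw [e0] at e1
  exact mul_left_cancel e1

/-- all fibres have the same size. -/
theorem card_fibre_eq [Finite G] {z s t₀ : G} (hz : Cfsg.IsIsolatedInvolution z)
    (hsz : Commute s z) (h0 : ConjOf z t₀) (h0s : Commute t₀ s) :
    Nat.card {t : G // ConjOf z t ∧ Commute t (s * t₀)}
      = Nat.card {t : G // ConjOf z t ∧ Commute t (s * z)} := by
  obtain ⟨g, rfl⟩ := h0
  obtain ⟨h, hh, hh2⟩ := isolated_fusion hz (Subgroup.centralizer {s})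
    (by rw [Subgroup.mem_centralizer_singleton_iff]; exact hsz.symm.eq)
    g (by rw [Subgroup.mem_centralizer_singleton_iff]; exact h0s.eq)
  rw [Subgroup.mem_centralizer_singleton_iff] at hh
  rw [← hh2]
  have hs' : h * s * h⁻¹ = s := by rw [hh]; group
  have e : s * (h * z * h⁻¹) = h * (s * z) * h⁻¹ := by
    calc s * (h * z * h⁻¹) = (h * s * h⁻¹) * (h * z * h⁻¹) := by rw [hs']
      _ = _ := by group
  symm
  refine Nat.card_congr (Equiv.subtypeEquiv (MulAut.conj h).toEquiv ?_)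
  intro t
  show _ ↔ ConjOf z (h * t * h⁻¹) ∧ Commute (h * t * h⁻¹) _
  rw [e]
  constructor
  · rintro ⟨h1, h2⟩
    refine ⟨h1.conj h, ?_⟩
    show h * t * h⁻¹ * (h * (s * z) * h⁻¹) = h * (s * z) * h⁻¹ * (h * t * h⁻¹)
    calc h * t * h⁻¹ * (h * (s * z) * h⁻¹) = h * (t * (s * z)) * h⁻¹ := by group
      _ = h * ((s * z) * t) * h⁻¹ := by rw [h2.eq]
      _ = _ := by group
  · rintro ⟨h1, h2⟩
    refine ⟨?_, ?_⟩
    · have := h1.conj h⁻¹
      have e2 : h⁻¹ * (h * t * h⁻¹) * h⁻¹⁻¹ = t := by group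
      rwa [e2] at this
    · show t * (s * z) = s * z * t
      have h3 := h2.eq
      calc t * (s * z) = h⁻¹ * (h * t * h⁻¹ * (h * (s * z) * h⁻¹)) * h := by group
        _ = h⁻¹ * (h * (s * z) * h⁻¹ * (h * t * h⁻¹)) * h := by rw [h3]
        _ = _ := by group

theorem card_conjOf_eq_mul [Finite G] {z s : G} (hz : Cfsg.IsIsolatedInvolution z)
    (hs : orderOf s = 2) (hsz : Commute s z) :
    Nat.card {t : G // ConjOf z t}
      = Nat.card {t : G // ConjOf z t ∧ Commute t (s * z)}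
        * Nat.card {t : G // ConjOf z t ∧ Commute t s} := by
  by_cases hsz' : s = z
  · subst hsz'
    rw [sq_of_orderOf_two hs]
    have h1 : Nat.card {t : G // ConjOf s t ∧ Commute t s} = 1 := by
      rw [Nat.card_eq_one_iff_unique]
      refine ⟨⟨?_⟩, ⟨⟨s, ⟨1, by group⟩, Commute.refl s⟩⟩⟩
      rintro ⟨a, ⟨g, rfl⟩, ha⟩ ⟨b, ⟨g', rfl⟩, hb⟩
      apply Subtype.ext
      show g * s * g⁻¹ = g' * s * g'⁻¹
      rw [hz.2 g ha.symm, hz.2 g' hb.symm]
    rw [h1, mul_one]
    exact Nat.card_congr (Equiv.subtypeEquivRight (fun t => by simp))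
  · have hsΩ : ¬ ConjOf z s := by
      rintro ⟨g, hg⟩
      apply hsz'
      rw [← hg]
      apply hz.2
      rw [hg]
      exact hsz.symm
    have hex : ∀ t : {t : G // ConjOf z t}, ∃ t₀ : {t : G // ConjOf z t ∧ Commute t s},
        Commute t.1 (s * t₀.1) := by
      rintro ⟨t, ht⟩
      obtain ⟨t₀, h1, h2, h3⟩ := exists_conjOf_commute hz hs hsΩ ht
      exact ⟨⟨t₀, h1, h2⟩, h3⟩
    choose f hf using hex
    have hfib : ∀ y : {t : G // ConjOf z t ∧ Commute t s},
        Nat.card {x : {t : G // ConjOf z t} // f x = y}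
          = Nat.card {t : G // ConjOf z t ∧ Commute t (s * z)} := by
      intro y
      rw [← card_fibre_eq hz hsz y.2.1 y.2.2]
      refine Nat.card_congr (Equiv.ofBijective
        (fun x => ⟨x.1.1, x.1.2, by have h := hf x.1; rw [x.2] at h; exact h⟩) ⟨?_, ?_⟩)
      · rintro ⟨⟨a, ha⟩, ha'⟩ ⟨⟨b, hb⟩, hb'⟩ h
        simp only [Subtype.mk.injEq] at h
        subst h
        rfl
      · rintro ⟨t, ht1, ht2⟩
        refine ⟨⟨⟨t, ht1⟩, ?_⟩, rfl⟩
        apply Subtype.ext
        exact conjOf_commute_unique hz hs ht1 (f ⟨t, ht1⟩).2.1 (f ⟨t, ht1⟩).2.2 (hf ⟨t, ht1⟩)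
          y.2.1 y.2.2 ht2
    haveI : Fintype {t : G // ConjOf z t ∧ Commute t s} := Fintype.ofFinite _
    rw [← Nat.card_congr (Equiv.sigmaFiberEquiv f), Nat.card_sigma]
    simp only [hfib]
    rw [Finset.sum_const, smul_eq_mul, Finset.card_univ, ← Nat.card_eq_fintype_card, mul_comm]

end Cfsg.Agent.Lib.Helper8
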