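import Mathlib
import Cfsg.Prelude.Def_LieRecognition

set_option autoImplicit false

namespace Cfsg.Agent.Lib.Helper8

variable {G Ω : Type*} [Group G] [MulAction G Ω] {a : Ω} {t : G} {Q : Subgroup G}

theorem rankOne_t_conj_mem (hS : Cfsg.IsRankOneSetup G Ω a t Q) {c : G}
    (hc : c ∈ MulAction.stabilizer G a ⊓ MulAction.stabilizer G (t • a)) :
    t * c * t ∈ MulAction.stabilizer G a ⊓ MulAction.stabilizer G (t • a) := by
  obtain ⟨h1, h2⟩ := Subgroup.mem_inf.mp hc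
  rw [MulAction.mem_stabilizer_iff] at h1 h2
  have htt : t • t • a = a := by rw [← mul_smul, hS.mul_self, one_smul]
  refine Subgroup.mem_inf.mpr ⟨?_, ?_⟩
  · rw [MulAction.mem_stabilizer_iff, mul_smul, mul_smul, h2, htt]
  · rw [MulAction.mem_stabilizer_iff, mul_smul, mul_smul, htt, h1]

theorem rankOne_unique (hS : Cfsg.IsRankOneSetup G Ω a t Q) {g h f g' h' f' : G}
    (hg : g ∈ Q) (hh : h ∈ MulAction.stabilizer G a ⊓ MulAction.stabilizer G (t • a)) (hf : f ∈ Q)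
    (hg' : g' ∈ Q) (hh' : h' ∈ MulAction.stabilizer G a ⊓ MulAction.stabilizer G (t • a)) (hf' : f' ∈ Q)
    (heq : g * h * t * f = g' * h' * t * f') : g = g' ∧ h = h' ∧ f = f' := by
  have htt : t • t • a = a := by rw [← mul_smul, hS.mul_self, one_smul]
  have htinv : t⁻¹ = t := inv_eq_of_mul_eq_one_left hS.mul_self
  have hb : (g' * h')⁻¹ * (g * h) ∈ MulAction.stabilizer G a :=
    Subgroup.mul_mem _ (Subgroup.inv_mem _ (Subgroup.mul_mem _ (hS.le hg') hh'.1))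
      (Subgroup.mul_mem _ (hS.le hg) hh.1)
  have e1 : t * ((g' * h')⁻¹ * (g * h)) * t = f' * f⁻¹ := by
    have : (g' * h')⁻¹ * (g * h) * t = t * f' * f⁻¹ := by
      calc (g' * h')⁻¹ * (g * h) * t = (g' * h')⁻¹ * (g * h * t * f) * f⁻¹ := by group
        _ = (g' * h')⁻¹ * (g' * h' * t * f') * f⁻¹ := by rw [heq]
        _ = t * f' * f⁻¹ := by group
    calc t * ((g' * h')⁻¹ * (g * h)) * t = t * ((g' * h')⁻¹ * (g * h) * t) := by group
      _ = t * (t * f' * f⁻¹) := by rw [this]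
      _ = (t * t) * f' * f⁻¹ := by group
      _ = f' * f⁻¹ := by rw [hS.mul_self, one_mul]
  have h1 : f' * f⁻¹ ∈ Q ⊓ MulAction.stabilizer G (t • a) := by
    refine Subgroup.mem_inf.mpr ⟨Q.mul_mem hf' (Q.inv_mem hf), ?_⟩
    rw [← e1, MulAction.mem_stabilizer_iff, mul_smul, mul_smul, htt]
    rw [MulAction.mem_stabilizer_iff] at hb
    rw [hb]
  rw [hS.inf_eq_bot, Subgroup.mem_bot] at h1
  have hff : f = f' := (mul_inv_eq_one.mp h1).symm
  subst hff
  have e2 : g * h = g' * h' := by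
    have := mul_right_cancel heq
    exact mul_right_cancel this
  have h2 : g'⁻¹ * g ∈ Q ⊓ MulAction.stabilizer G (t • a) := by
    refine Subgroup.mem_inf.mpr ⟨Q.mul_mem (Q.inv_mem hg') hg, ?_⟩
    have : g'⁻¹ * g = h' * h⁻¹ := by
      calc g'⁻¹ * g = g'⁻¹ * (g * h) * h⁻¹ := by group
        _ = g'⁻¹ * (g' * h') * h⁻¹ := by rw [e2]
        _ = h' * h⁻¹ := by group
    rw [this]
    exact Subgroup.mul_mem _ hh'.2 (Subgroup.inv_mem _ hh.2)
  rw [hS.inf_eq_bot, Subgroup.mem_bot] at h2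
  have hgg : g = g' := (inv_mul_eq_one.mp h2).symm
  subst hgg
  exact ⟨rfl, mul_left_cancel e2, rfl⟩

end Cfsg.Agent.Lib.Helper8
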