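import Mathlib
import Cfsg.Prelude.Def_Balance
import Cfsg.Agent.Lib.Helper8.CoprimeAct
import Cfsg.Agent.Lib.Helper8.CharIn
import Cfsg.Agent.Lib.Helper1.CoprimeSylow
import Cfsg.Agent.S1282

set_option autoImplicit false

namespace Cfsg.Agent.Lib.Helper8

open Cfsg.Agent.Lib.Helper1 (sylImg)

variable {G : Type*} [Group G]

theorem signalizerInf_le {A : Subgroup G} {θ : G → Subgroup G} {a : G} (ha : a ∈ A) (ha1 : a ≠ 1) :
    Cfsg.signalizerInf A θ ≤ θ a :=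
  iInf_le (fun a : {a : G // a ∈ A ∧ a ≠ 1} => θ (a : G)) ⟨a, ha, ha1⟩

theorem mem_signalizerInf {A : Subgroup G} {θ : G → Subgroup G} {c : G} :
    c ∈ Cfsg.signalizerInf A θ ↔ ∀ a ∈ A, a ≠ 1 → c ∈ θ a := by
  unfold Cfsg.signalizerInf
  rw [Subgroup.mem_iInf]
  exact ⟨fun h a ha ha1 => h ⟨a, ha, ha1⟩, fun h a => h a.1 a.2.1 a.2.2⟩

theorem signalizerInf_comm {p : ℕ} {A : Subgroup G} {θ : G → Subgroup G}
    (hθ : Cfsg.IsSignalizerFunctor p A θ) {c : G} (hc : c ∈ Cfsg.signalizerInf A θ) {a : G} (ha : a ∈ A) :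
    a * c = c * a := by
  by_cases ha1 : a = 1
  · simp [ha1]
  · have := hθ.1 a ha ha1 (signalizerInf_le ha ha1 hc)
    exact (Subgroup.mem_centralizer_singleton_iff.mp this).symm

theorem family_of_le [Finite G] {p : ℕ} {A : Subgroup G} {θ : G → Subgroup G} {U V : Subgroup G}
    (hU : U ∈ Cfsg.signalizerFamily p A θ) (hVU : V ≤ U) (hV : A ≤ Subgroup.normalizer (V : Set G)) :
    V ∈ Cfsg.signalizerFamily p A θ := by
  obtain ⟨h1, h2, h3, h4⟩ := hU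
  exact ⟨Group.isSolvable_of_isSolvable_injective (Subgroup.inclusion_injective hVU),
    fun h => h2 (h.trans (Subgroup.card_dvd_of_le hVU)),
    fun b hb u hu => (Subgroup.mem_normalizer_iff.mp (hV hb) u).mp hu,
    fun a ha ha1 => (inf_le_inf_right _ hVU).trans (h4 a ha ha1)⟩

theorem family_le_normalizer [Finite G] {p : ℕ} {A : Subgroup G} {θ : G → Subgroup G} {U : Subgroup G}
    (hU : U ∈ Cfsg.signalizerFamily p A θ) : A ≤ Subgroup.normalizer (U : Set G) :=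
  fun b hb => mem_normalizer_of_conj_mem U b (hU.2.2.1 b hb)

theorem family_conj [Finite G] {p : ℕ} {A : Subgroup G} {θ : G → Subgroup G}
    (hθ : Cfsg.IsSignalizerFunctor p A θ) {U : Subgroup G} (hU : U ∈ Cfsg.signalizerFamily p A θ) {c : G}
    (hc : c ∈ Cfsg.signalizerInf A θ) : U.map (MulAut.conj c).toMonoidHom ∈ Cfsg.signalizerFamily p A θ := by
  obtain ⟨h1, h2, h3, h4⟩ := hU
  refine ⟨?_, ?_, ?_, ?_⟩
  · exact Group.isSolvable_of_surjective (f := ((MulAut.conj c).toMonoidHom.subgroupMap U))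
      (MonoidHom.subgroupMap_surjective _ _)
  · rw [card_conjMap]; exact h2
  · intro b hb u hu
    rw [mem_conjMap] at hu ⊢
    have hbc := signalizerInf_comm hθ hc hb
    have hbc' : c⁻¹ * b = b * c⁻¹ := by
      rw [inv_mul_eq_iff_eq_mul, ← mul_assoc, ← hbc, mul_assoc, mul_inv_cancel, mul_one]
    have hbc'' : b⁻¹ * c = c * b⁻¹ := by
      rw [inv_mul_eq_iff_eq_mul, ← mul_assoc, hbc, mul_assoc, mul_inv_cancel, mul_one]
    have := h3 b hb _ hu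
    have e : c⁻¹ * (b * u * b⁻¹) * c = b * (c⁻¹ * u * c) * b⁻¹ := by
      calc c⁻¹ * (b * u * b⁻¹) * c = (c⁻¹ * b) * u * (b⁻¹ * c) := by group
        _ = (b * c⁻¹) * u * (c * b⁻¹) := by rw [hbc', hbc'']
        _ = b * (c⁻¹ * u * c) * b⁻¹ := by group
    rw [e]; exact this
  · intro a ha ha1 y hy
    obtain ⟨hy1, hy2⟩ := Subgroup.mem_inf.mp hy
    rw [mem_conjMap] at hy1
    rw [Subgroup.mem_centralizer_singleton_iff] at hy2
    have hac := signalizerInf_comm hθ hc ha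
    have hac' : c⁻¹ * a = a * c⁻¹ := by
      rw [inv_mul_eq_iff_eq_mul, ← mul_assoc, ← hac, mul_assoc, mul_inv_cancel, mul_one]
    have h5 : c⁻¹ * y * c ∈ θ a := by
      apply h4 a ha ha1
      refine Subgroup.mem_inf.mpr ⟨hy1, ?_⟩
      rw [Subgroup.mem_centralizer_singleton_iff]
      calc c⁻¹ * y * c * a = c⁻¹ * y * (a * c) := by rw [hac]; group
        _ = c⁻¹ * (y * a) * c := by group
        _ = (c⁻¹ * a) * y * c := by rw [hy2]; group
        _ = a * (c⁻¹ * y * c) := by rw [hac']; group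
    have hca := signalizerInf_le ha ha1 hc
    have := (θ a).mul_mem ((θ a).mul_mem hca h5) ((θ a).inv_mem hca)
    have e : c * (c⁻¹ * y * c) * c⁻¹ = y := by group
    rwa [e] at this

/-- maximal `q`-members of the family of a signalizer functor -/
def MaxQ (p q : ℕ) (A : Subgroup G) (θ : G → Subgroup G) (Q : Subgroup G) : Prop :=
  Q ∈ Cfsg.signalizerFamily p A θ ∧ IsPGroup q Q ∧
    ∀ R ∈ Cfsg.signalizerFamily p A θ, IsPGroup q R → Q ≤ R → R = Q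

theorem exists_maxQ_ge [Finite G] {p q : ℕ} {A : Subgroup G} {θ : G → Subgroup G} {S : Subgroup G}
    (hS : S ∈ Cfsg.signalizerFamily p A θ) (hSq : IsPGroup q S) : ∃ Q, MaxQ p q A θ Q ∧ S ≤ Q := by
  obtain ⟨U, ⟨hU1, hU2, hU3⟩, hUmax⟩ := exists_maximal_of_wellFoundedGT
    (fun U : Subgroup G => U ∈ Cfsg.signalizerFamily p A θ ∧ IsPGroup q U ∧ S ≤ U) ⟨S, hS, hSq, le_rfl⟩
  exact ⟨U, ⟨hU1, hU2, fun R hR hRq hUR => le_antisymm (hUmax ⟨hR, hRq, hU3.trans hUR⟩ hUR) hUR⟩, hU3⟩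

theorem MaxQ.conj [Finite G] {p q : ℕ} {A : Subgroup G} {θ : G → Subgroup G}
    (hθ : Cfsg.IsSignalizerFunctor p A θ) {Q : Subgroup G} (hQ : MaxQ p q A θ Q) {c : G}
    (hc : c ∈ Cfsg.signalizerInf A θ) : MaxQ p q A θ (Q.map (MulAut.conj c).toMonoidHom) := by
  refine ⟨family_conj hθ hQ.1 hc, isPGroup_conjMap hQ.2.1 c, ?_⟩
  intro R hR hRq hle
  have h1 := hQ.2.2 _ (family_conj hθ hR (Subgroup.inv_mem _ hc)) (isPGroup_conjMap hRq c⁻¹) (by
    have := conjMap_mono c⁻¹ hle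
    rwa [conjMap_conjMap, inv_mul_cancel, conjMap_one] at this)
  rw [← h1, conjMap_conjMap, mul_inv_cancel, conjMap_one]

theorem coprime_of_not_dvd {p n : ℕ} [Fact p.Prime] (h : ¬ p ∣ n) : n.Coprime p :=
  ((Nat.Prime.coprime_iff_not_dvd Fact.out).mpr h).symm

theorem family_sup [Finite G] {p : ℕ} [Fact p.Prime] {A : Subgroup G} {θ : G → Subgroup G}
    (hA : Cfsg.IsElementaryAbelian p A) {D L : Subgroup G} (hD : D ∈ Cfsg.signalizerFamily p A θ)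
    (hL : L ∈ Cfsg.signalizerFamily p A θ) (hn : L ≤ Subgroup.normalizer (D : Set G)) :
    D ⊔ L ∈ Cfsg.signalizerFamily p A θ := by
  have hp : p.Prime := Fact.out
  have hAD := family_le_normalizer hD
  have hAL := family_le_normalizer hL
  refine ⟨isSolvable_sup_of_le_normalizer hD.1 hL.1 hn, ?_, ?_, ?_⟩
  · intro h
    rcases (hp.dvd_mul).mp (h.trans (card_sup_dvd hn)) with h1 | h1
    · exact hD.2.1 h1
    · exact hL.2.1 h1
  · intro b hb u hu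
    have h1 : b ∈ Subgroup.normalizer ((D ⊔ L : Subgroup G) : Set G) := by
      rw [← conjMap_eq_iff_mem_normalizer, Subgroup.map_sup,
        (conjMap_eq_iff_mem_normalizer D b).mpr (hAD hb), (conjMap_eq_iff_mem_normalizer L b).mpr (hAL hb)]
    exact (Subgroup.mem_normalizer_iff.mp h1 u).mp hu
  · intro b hb hb1 x hx
    obtain ⟨hx1, hx2⟩ := Subgroup.mem_inf.mp hx
    obtain ⟨l, hl, d, hd, rfl⟩ := (mem_sup_of_le_normalizer hn).mp hx1
    have hBp : IsPGroup p (Subgroup.zpowers b) := isPGroup_zpowers_of_pow_eq_one (hA.2 b hb)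
    have hBA : Subgroup.zpowers b ≤ A := Subgroup.zpowers_le.mpr hb
    have hNc : (Nat.card (L ⊓ D : Subgroup G)).Coprime p :=
      Nat.Coprime.of_dvd_left (Subgroup.card_dvd_of_le inf_le_left) (coprime_of_not_dvd hL.2.1)
    have hxB : l * d ∈ Subgroup.centralizer ((Subgroup.zpowers b : Subgroup G) : Set G) := by
      rw [centralizer_zpowers_eq]; exact hx2
    obtain ⟨n, hn', m, hm, hlnm⟩ := exists_mul_centralizer hBp hNc
      (hBA.trans (le_normalizer_inf hAL hAD)) (k := l⁻¹) (by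
      intro b' hb'
      have hc : b' * (l * d) = l * d * b' := Subgroup.mem_centralizer_iff.mp hxB b' hb'
      have hb'i : b'⁻¹ ∈ A := A.inv_mem (hBA hb')
      refine Subgroup.mem_inf.mpr ⟨?_, ?_⟩
      · have h1 := (Subgroup.mem_normalizer_iff.mp (hAL hb'i) l⁻¹).mp (L.inv_mem hl)
        rw [inv_inv] at h1 ⊢
        exact L.mul_mem h1 hl
      · have h1 := (Subgroup.mem_normalizer_iff.mp (hAD hb'i) d).mp hd
        rw [inv_inv] at h1 ⊢
        have h2 : b'⁻¹ * l⁻¹ * b' * l = (b'⁻¹ * d * b') * d⁻¹ := by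
          have h3 : b'⁻¹ * (l * d) * b' = l * d := by
            rw [mul_assoc, ← hc, inv_mul_cancel_left]
          have h4 : b'⁻¹ * l⁻¹ * b' = (b'⁻¹ * d * b') * (b'⁻¹ * (l * d) * b')⁻¹ := by group
          rw [h4, h3]; group
        rw [h2]
        exact D.mul_mem h1 (D.inv_mem hd))
    obtain ⟨hnL, hnD⟩ := Subgroup.mem_inf.mp hn'
    rw [centralizer_zpowers_eq] at hm
    have hmL : m ∈ L := by
      have : m = n⁻¹ * l⁻¹ := by rw [hlnm, inv_mul_cancel_left]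
      rw [this]; exact L.mul_mem (L.inv_mem hnL) (L.inv_mem hl)
    have hmθ : m ∈ θ b := hL.2.2.2 b hb hb1 (Subgroup.mem_inf.mpr ⟨hmL, hm⟩)
    have hl' : l = m⁻¹ * n⁻¹ := by rw [← inv_inj, hlnm, mul_inv_rev, inv_inv, inv_inv]
    have hnd : n⁻¹ * d ∈ θ b := by
      apply hD.2.2.2 b hb hb1
      refine Subgroup.mem_inf.mpr ⟨D.mul_mem (D.inv_mem hnD) hd, ?_⟩
      have : n⁻¹ * d = m * (l * d) := by rw [hl']; group
      rw [this]
      exact Subgroup.mul_mem _ hm hx2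
    have : l * d = m⁻¹ * (n⁻¹ * d) := by rw [hl']; group
    rw [this]
    exact (θ b).mul_mem ((θ b).inv_mem hmθ) hnd

theorem theta_mem_family {p : ℕ} {A : Subgroup G} {θ : G → Subgroup G}
    (hθ : Cfsg.IsSolvableSignalizerFunctor p A θ) {a : G} (ha : a ∈ A) (ha1 : a ≠ 1) :
    θ a ∈ Cfsg.signalizerFamily p A θ :=
  ⟨hθ.2 a ha ha1, hθ.1.2.1 a ha ha1, hθ.1.2.2.1 a ha ha1, fun b hb hb1 => hθ.1.2.2.2 a ha ha1 b hb hb1⟩

theorem elemAb_isPGroup' {p : ℕ} {A : Subgroup G} (hA : Cfsg.IsElementaryAbelian p A) : IsPGroup p A := by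
  rintro ⟨a, ha⟩
  exact ⟨1, Subtype.ext (by simpa using hA.2 a ha)⟩

/-- the transitivity theorem -/
theorem signalizer_transitivity [Finite G] (p : ℕ) [Fact p.Prime] (A : Subgroup G)
    (hA : Cfsg.IsElementaryAbelian p A) (hA3 : p ^ 3 ≤ Nat.card ↥A) (θ : G → Subgroup G)
    (hθ : Cfsg.IsSolvableSignalizerFunctor p A θ) (q : ℕ) [Fact q.Prime] (hqp : q ≠ p)
    (Q₁ Q₂ : Subgroup G) (h₁ : MaxQ p q A θ Q₁) (h₂ : MaxQ p q A θ Q₂) :
    ∃ c ∈ Cfsg.signalizerInf A θ, Q₁.map (MulAut.conj c).toMonoidHom = Q₂ := by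
  induction hn : Nat.card G - Nat.card (Q₁ ⊓ Q₂ : Subgroup G) using Nat.strong_induction_on
    generalizing Q₁ Q₂ with
  | _ n ih =>
    by_cases hD₁ : Q₁ ⊓ Q₂ = Q₁
    · refine ⟨1, Subgroup.one_mem _, ?_⟩
      rw [conjMap_one]
      exact (h₁.2.2 Q₂ h₂.1 h₂.2.1 (inf_eq_left.mp hD₁)).symm
    by_cases hD₂ : Q₁ ⊓ Q₂ = Q₂
    · refine ⟨1, Subgroup.one_mem _, ?_⟩
      rw [conjMap_one]
      exact h₂.2.2 Q₁ h₁.1 h₁.2.1 (inf_eq_right.mp hD₂)
    have hAQ₁ := family_le_normalizer h₁.1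
    have hAQ₂ := family_le_normalizer h₂.1
    obtain ⟨a, ha, ha1, hN₁, hN₂⟩ := Cfsg.Agent.S1282.result p A hA hA3 q hqp Q₁ Q₂ h₁.2.1 h₂.2.1
      hAQ₁ hAQ₂ hD₁ hD₂
    obtain ⟨D, hD⟩ : ∃ D, D = Q₁ ⊓ Q₂ := ⟨_, rfl⟩
    rw [← hD] at hN₁ hN₂ hn hD₁ hD₂
    have hAD : A ≤ Subgroup.normalizer (D : Set G) := hD ▸ le_normalizer_inf hAQ₁ hAQ₂
    have hDF : D ∈ Cfsg.signalizerFamily p A θ := family_of_le h₁.1 (hD ▸ inf_le_left) hAD
    have hLF : θ a ⊓ Subgroup.normalizer (D : Set G) ∈ Cfsg.signalizerFamily p A θ :=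
      family_of_le (theta_mem_family hθ ha ha1) inf_le_left
        (le_normalizer_inf (family_le_normalizer (theta_mem_family hθ ha ha1))
          (hAD.trans Subgroup.le_normalizer))
    have hMF := family_sup hA hDF hLF inf_le_right
    obtain ⟨M, hM⟩ : ∃ M, M = D ⊔ θ a ⊓ Subgroup.normalizer (D : Set G) := ⟨_, rfl⟩
    rw [← hM] at hMF
    have hAM := family_le_normalizer hMF
    have hcop : (Nat.card A).Coprime (Nat.card M) := by
      obtain ⟨k, hk⟩ := IsPGroup.iff_card.mp (elemAb_isPGroup' hA)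
      rw [hk]
      exact Nat.Coprime.pow_left k (coprime_of_not_dvd hMF.2.1).symm
    -- the key construction for each of the two subgroups
    have key : ∀ Q : Subgroup G, MaxQ p q A θ Q → D ≤ Q →
        ¬ (Subgroup.normalizer (D : Set G) ⊓ Q ⊓ Subgroup.centralizer {a} ≤ D) →
        ∃ S : Sylow q M, A ≤ Subgroup.normalizer (sylImg S : Set G) ∧ D < sylImg S ⊓ Q := by
      intro Q hQ hDQ hN
      obtain ⟨S, hS1, hS2⟩ := Cfsg.Agent.Lib.Helper1.coprime_invariant_psubgroup_le A M hAM hcop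
        (Or.inr hMF.1) q (M ⊓ Q) inf_le_left (hQ.2.1.to_le inf_le_right)
        (le_normalizer_inf hAM (family_le_normalizer hQ.1))
      refine ⟨S, hS2, ?_⟩
      have hDM : D ≤ M := hM ▸ le_sup_left
      refine lt_of_le_of_ne (le_inf ((le_inf hDM hDQ).trans hS1) hDQ) ?_
      intro heq
      apply hN
      intro y hy
      obtain ⟨hy1, hy3⟩ := Subgroup.mem_inf.mp hy
      obtain ⟨hy1, hy2⟩ := Subgroup.mem_inf.mp hy1
      rw [heq]
      refine Subgroup.mem_inf.mpr ⟨hS1 (Subgroup.mem_inf.mpr ⟨?_, hy2⟩), hy2⟩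
      rw [hM]
      apply Subgroup.mem_sup_right
      exact Subgroup.mem_inf.mpr ⟨hQ.1.2.2.2 a ha ha1 (Subgroup.mem_inf.mpr ⟨hy2, hy3⟩), hy1⟩
    obtain ⟨S₁, hS₁A, hS₁⟩ := key Q₁ h₁ (hD ▸ inf_le_left) hN₁
    obtain ⟨S₂, hS₂A, hS₂⟩ := key Q₂ h₂ (hD ▸ inf_le_right) hN₂
    obtain ⟨c, hcA, hc⟩ := Cfsg.Agent.Lib.Helper1.coprime_invariant_sylow_conj A M hAM hcop
      (Or.inr hMF.1) q S₁ S₂ hS₁A hS₂A
    have hcS : (sylImg S₁).map (MulAut.conj (c : G)).toMonoidHom = sylImg S₂ := by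
      rw [← hc, Cfsg.Agent.Lib.Helper1.sylImg_conj_smul]
      rfl
    have hcI : (c : G) ∈ Cfsg.signalizerInf A θ := by
      rw [mem_signalizerInf]
      intro b hb hb1
      apply hMF.2.2.2 b hb hb1
      refine Subgroup.mem_inf.mpr ⟨c.2, ?_⟩
      exact Subgroup.centralizer_le (by simpa using hb) hcA
    obtain ⟨Q₁', hQ₁', hSQ₁⟩ := exists_maxQ_ge
      (family_of_le hMF (Cfsg.Agent.Lib.Helper1.sylImg_le S₁) hS₁A) (Cfsg.Agent.Lib.Helper1.sylImg_isPGroup S₁)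
    obtain ⟨Q₂', hQ₂', hSQ₂⟩ := exists_maxQ_ge
      (family_of_le hMF (Cfsg.Agent.Lib.Helper1.sylImg_le S₂) hS₂A) (Cfsg.Agent.Lib.Helper1.sylImg_isPGroup S₂)
    have hlt : ∀ X Y : Subgroup G, D < X ⊓ Y → Nat.card G - Nat.card (X ⊓ Y : Subgroup G) < n := by
      intro X Y h
      have h1 := card_lt_of_lt h
      have h2 : Nat.card (X ⊓ Y : Subgroup G) ≤ Nat.card G := Subgroup.card_le_card_group _
      omega
    obtain ⟨c₁, hc₁, he₁⟩ := ih _ (hlt Q₁ Q₁' (lt_of_lt_of_le hS₁ (le_inf inf_le_right (inf_le_left.trans hSQ₁))))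
      Q₁ Q₁' h₁ hQ₁' rfl
    obtain ⟨c₂, hc₂, he₂⟩ := ih _ (hlt Q₂ Q₂' (lt_of_lt_of_le hS₂ (le_inf inf_le_right (inf_le_left.trans hSQ₂))))
      Q₂ Q₂' h₂ hQ₂' rfl
    obtain ⟨c₃, hc₃, he₃⟩ := ih _ (hlt (Q₁'.map (MulAut.conj (c : G)).toMonoidHom) Q₂'
      (lt_of_lt_of_le hS₂ (le_inf (inf_le_left.trans (hcS ▸ conjMap_mono _ hSQ₁)) (inf_le_left.trans hSQ₂))))
      _ Q₂' (hQ₁'.conj hθ.1 hcI) hQ₂' rfl
    refine ⟨c₂⁻¹ * (c₃ * (c * c₁)), Subgroup.mul_mem _ (Subgroup.inv_mem _ hc₂)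
      (Subgroup.mul_mem _ hc₃ (Subgroup.mul_mem _ hcI hc₁)), ?_⟩
    rw [← conjMap_conjMap, ← conjMap_conjMap, ← conjMap_conjMap, he₁, he₃, ← he₂, conjMap_conjMap,
      inv_mul_cancel, conjMap_one]

end Cfsg.Agent.Lib.Helper8
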