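import Mathlib
import Cfsg.Agent.Lib.Helper8.Signalizer
import Cfsg.Agent.Lib.Helper8.Rank

set_option autoImplicit false

namespace Cfsg.Agent.Lib.Helper8

open Cfsg.Agent.Lib.Helper1 (sylImg)

variable {G : Type*} [Group G]

theorem maxQ_sylow_member [Finite G] (p : ℕ) [Fact p.Prime] (A : Subgroup G)
    (hA : Cfsg.IsElementaryAbelian p A) (hA3 : p ^ 3 ≤ Nat.card ↥A) (θ : G → Subgroup G)
    (hθ : Cfsg.IsSolvableSignalizerFunctor p A θ) (q : ℕ) [Fact q.Prime] (hqp : q ≠ p)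
    (Q : Subgroup G) (hQ : MaxQ p q A θ Q) (H : Subgroup G) (hH : H ∈ Cfsg.signalizerFamily p A θ) :
    ∃ c ∈ Cfsg.signalizerInf A θ, ∃ S : Sylow q ↥H,
      (S : Subgroup ↥H).map H.subtype = Q.map (MulAut.conj c).toMonoidHom ⊓ H := by
  have hAH := family_le_normalizer hH
  have hcop : (Nat.card A).Coprime (Nat.card H) := by
    obtain ⟨k, hk⟩ := IsPGroup.iff_card.mp (elemAb_isPGroup' hA)
    rw [hk]
    exact Nat.Coprime.pow_left k (coprime_of_not_dvd hH.2.1).symm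
  obtain ⟨S, hS⟩ := Cfsg.Agent.Lib.Helper1.coprime_exists_invariant_sylow A H hAH hcop (Or.inr hH.1) q
  obtain ⟨Q', hQ', hSQ⟩ := exists_maxQ_ge
      (family_of_le hH (Cfsg.Agent.Lib.Helper1.sylImg_le S) hS) (Cfsg.Agent.Lib.Helper1.sylImg_isPGroup S)
  obtain ⟨c, hc, he⟩ := signalizer_transitivity p A hA hA3 θ hθ q hqp Q Q' hQ hQ'
  refine ⟨c, hc, S, ?_⟩
  rw [he]
  exact (sylow_map_subtype_maximal S (hQ'.2.1.to_le inf_le_left) inf_le_right
    (le_inf hSQ (Subgroup.map_subtype_le _))).symm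

theorem signalizerInf_mem_family [Finite G] {p : ℕ} {A : Subgroup G} {θ : G → Subgroup G}
    (hθ : Cfsg.IsSolvableSignalizerFunctor p A θ) {B : Subgroup G} (hBA : B ≤ A) (hB : B ≠ ⊥) :
    Cfsg.signalizerInf B θ ∈ Cfsg.signalizerFamily p A θ := by
  obtain ⟨⟨b, hb⟩, hb1⟩ := Subgroup.ne_bot_iff_exists_ne_one.mp hB
  have hb1' : b ≠ 1 := fun h => hb1 (Subtype.ext h)
  apply family_of_le (theta_mem_family hθ (hBA hb) hb1') (signalizerInf_le hb hb1')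
  intro a ha
  apply mem_normalizer_of_conj_mem
  intro x hx
  rw [mem_signalizerInf] at hx ⊢
  intro b' hb' hb'1
  exact hθ.1.2.2.1 b' (hBA hb') hb'1 a ha x (hx b' hb' hb'1)

theorem maxQ_sylow_centralizer [Finite G] (p : ℕ) [Fact p.Prime] (A : Subgroup G)
    (hA : Cfsg.IsElementaryAbelian p A) (hA3 : p ^ 3 ≤ Nat.card ↥A) (θ : G → Subgroup G)
    (hθ : Cfsg.IsSolvableSignalizerFunctor p A θ) (q : ℕ) [Fact q.Prime] (hqp : q ≠ p)
    (Q : Subgroup G) (hQ : MaxQ p q A θ Q) (B : Subgroup G) (hBA : B ≤ A) (hB : B ≠ ⊥) :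
    ∃ S : Sylow q ↥(Cfsg.signalizerInf B θ),
      (S : Subgroup ↥(Cfsg.signalizerInf B θ)).map (Cfsg.signalizerInf B θ).subtype
        = Q ⊓ Subgroup.centralizer (B : Set G) := by
  obtain ⟨c, hc, S, hS⟩ := maxQ_sylow_member p A hA hA3 θ hθ q hqp Q hQ _ (signalizerInf_mem_family hθ hBA hB)
  have hcT : c ∈ Cfsg.signalizerInf B θ := by
    rw [mem_signalizerInf] at hc ⊢
    exact fun b hb hb1 => hc b (hBA hb) hb1
  refine ⟨(⟨c, hcT⟩ : Cfsg.signalizerInf B θ)⁻¹ • S, ?_⟩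
  have h1 := Cfsg.Agent.Lib.Helper1.sylImg_smul (⟨c, hcT⟩ : Cfsg.signalizerInf B θ)⁻¹ S
  have h2 : sylImg S = Q.map (MulAut.conj c).toMonoidHom ⊓ Cfsg.signalizerInf B θ := hS
  rw [h2] at h1
  refine Eq.trans h1 ?_
  ext y
  rw [← conjMap_eq_smul, mem_conjMap]
  simp only [Subgroup.coe_inv, inv_inv, Subgroup.mem_inf, mem_conjMap]
  have e : c⁻¹ * (c * y * c⁻¹) * c = y := by group
  rw [e]
  constructor
  · rintro ⟨hy1, hy2⟩
    refine ⟨hy1, ?_⟩
    have hyT : y ∈ Cfsg.signalizerInf B θ := by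
      have := Subgroup.mul_mem _ (Subgroup.mul_mem _ (Subgroup.inv_mem _ hcT) hy2) hcT
      rwa [e] at this
    rw [Subgroup.mem_centralizer_iff]
    intro b hb
    by_cases hb1 : b = 1
    · simp [hb1]
    · have := hθ.1.1 b (hBA hb) hb1 (signalizerInf_le hb hb1 hyT)
      exact (Subgroup.mem_centralizer_singleton_iff.mp this).symm
  · rintro ⟨hy1, hy2⟩
    refine ⟨hy1, ?_⟩
    apply Subgroup.mul_mem _ (Subgroup.mul_mem _ hcT _) (Subgroup.inv_mem _ hcT)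
    rw [mem_signalizerInf]
    intro b hb hb1
    apply hQ.1.2.2.2 b (hBA hb) hb1
    exact Subgroup.mem_inf.mpr ⟨hy1, Subgroup.centralizer_le (by simpa using hb) hy2⟩

end Cfsg.Agent.Lib.Helper8
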