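import Mathlib
import Cfsg.Agent.S1782
import Cfsg.Agent.Lib.Helper22.Frat
import Cfsg.Agent.Lib.Helper9.PStable2
import Cfsg.Agent.Lib.Helper8.FStar
import Cfsg.Agent.Lib.Helper8.Cores

set_option autoImplicit false

namespace Cfsg.Agent.Lib.Helper8

theorem ti_commute {X : Type*} [Group X] [Finite X] (P : Subgroup X) (hP : IsPGroup 2 P)
    (D : Set (Subgroup X)) (hle : ∀ R ∈ D, R ≤ P)
    (hinv : ∀ s ∈ P, ∀ R ∈ D, R.map (MulAut.conj s).toMonoidHom ∈ D)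
    (hΦ : ∀ R ∈ D, ∃ r ∈ R, r ^ 2 ≠ 1) (hord : ∀ R ∈ D, ∀ T ∈ D, Nat.card R = Nat.card T)
    (hti : ∀ R ∈ D, ∀ T ∈ D, R = T ∨ R ⊓ T = ⊥) :
    ∀ R ∈ D, ∀ T ∈ D, R ≠ T → ∀ r ∈ R, ∀ t ∈ T, r * t = t * r := by
  haveI : Fact (Nat.Prime 2) := ⟨Nat.prime_two⟩
  have hinj : Function.Injective P.subtype := P.subtype_injective
  have key := Cfsg.Agent.S1782.result hP {R' : Subgroup P | R'.map P.subtype ∈ D} ?_ ?_ ?_ ?_
  · intro R hR T hT hne r hr t ht
    have hR' : (R.subgroupOf P).map P.subtype = R := by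
      rw [Subgroup.subgroupOf_map_subtype, inf_eq_left.mpr (hle R hR)]
    have hT' : (T.subgroupOf P).map P.subtype = T := by
      rw [Subgroup.subgroupOf_map_subtype, inf_eq_left.mpr (hle T hT)]
    have h1 := key (R.subgroupOf P) (by show _ ∈ D; rwa [hR']) (T.subgroupOf P)
      (by show _ ∈ D; rwa [hT']) (by
        intro h
        apply hne
        rw [← hR', ← hT', h])
    rw [Subgroup.commutator_eq_bot_iff_le_centralizer] at h1
    have h2 := Subgroup.mem_centralizer_iff.mp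
      (h1 (show (⟨r, hle R hR hr⟩ : P) ∈ R.subgroupOf P from hr)) ⟨t, hle T hT ht⟩
      (show (⟨t, hle T hT ht⟩ : P) ∈ T.subgroupOf P from ht)
    exact (congrArg Subtype.val h2).symm
  · intro s R' hR'
    show _ ∈ D
    have := hinv s s.2 _ hR'
    rw [Subgroup.map_map] at this ⊢
    convert this using 2
    ext x
    simp
  · intro R' hR'
    obtain ⟨r, hr, hr2⟩ := hΦ _ hR'
    obtain ⟨r', hr', rfl⟩ := hr
    intro hbot
    have h1 := Cfsg.Agent.Lib.Helper22.pow_mem_frattini (p := 2) (hP.to_subgroup R') ⟨r', hr'⟩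
    rw [hbot, Subgroup.mem_bot] at h1
    apply hr2
    have h2 := congrArg (fun x : R' => ((x : P) : X)) h1
    simpa using h2
  · intro R' hR' T' hT'
    have := hord _ hR' _ hT'
    rwa [Subgroup.card_map_of_injective hinj, Subgroup.card_map_of_injective hinj] at this
  · intro R' hR' T' hT'
    rcases hti _ hR' _ hT' with h | h
    · left; exact Subgroup.map_injective hinj h
    · right
      rw [← Subgroup.map_inf _ _ _ hinj] at h
      exact (Subgroup.map_eq_bot_iff_of_injective _ hinj).mp h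

theorem isPGroup_two_of_odd_trivial {X : Type*} [Group X] [Finite X] (N : Subgroup X)
    (h : ∀ x ∈ N, (orderOf x).Coprime 2 → x = 1) : IsPGroup 2 N := by
  intro y
  obtain ⟨k, m, hm, hkm⟩ := Nat.exists_eq_pow_mul_and_not_dvd (orderOf_pos (y : X)).ne' 2 (by norm_num)
  refine ⟨k, ?_⟩
  have h1 : orderOf ((y : X) ^ 2 ^ k) = m := by
    rw [orderOf_pow_of_dvd (by positivity) (by rw [hkm]; exact dvd_mul_right _ _), hkm,
      Nat.mul_div_cancel_left _ (by positivity)]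
  have h2 := h ((y : X) ^ 2 ^ k) (N.pow_mem y.2 _) (by
    rw [h1]
    exact (Nat.Prime.coprime_iff_not_dvd Nat.prime_two).mpr hm |>.symm)
  exact Subtype.ext h2

theorem sq_mem_pCore {X : Type*} [Group X] [Finite X]
    (hX : Cfsg.generalizedFittingSubgroup X = Cfsg.pCore 2 X) (a : X)
    (hq : ∀ q ∈ Cfsg.pCore 2 X, Commute a (q * a⁻¹ * q⁻¹)) : a ^ 2 ∈ Cfsg.pCore 2 X := by
  haveI : Fact (Nat.Prime 2) := ⟨Nat.prime_two⟩
  obtain ⟨Q, hQ⟩ : ∃ Q, Q = Cfsg.pCore 2 X := ⟨_, rfl⟩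
  rw [← hQ] at hq hX ⊢
  haveI hQn : Q.Normal := by rw [hQ]; infer_instance
  have hQ2 : IsPGroup 2 Q := by rw [hQ]; exact isPGroup_pCore 2
  obtain ⟨Φ, hΦ⟩ : ∃ Φ, Φ = (frattini Q).map Q.subtype := ⟨_, rfl⟩
  haveI hΦn : Φ.Normal := by rw [hΦ]; exact ConjAct.normal_of_characteristic_of_normal
  have hΦmem : ∀ w : Q, (w : X) ∈ Φ ↔ w ∈ frattini Q := by
    intro w
    rw [hΦ]
    exact Subgroup.mem_map_iff_mem Q.subtype_injective
  haveI : (Q.map (QuotientGroup.mk' Φ)).Normal := hQn.map _ (QuotientGroup.mk'_surjective Φ)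
  obtain ⟨N, hN⟩ : ∃ N, N = (Subgroup.centralizer ((Q.map (QuotientGroup.mk' Φ) : Subgroup (X ⧸ Φ)) :
      Set (X ⧸ Φ))).comap (QuotientGroup.mk' Φ) := ⟨_, rfl⟩
  haveI hNn : N.Normal := by rw [hN]; infer_instance
  have hNmem : ∀ x, x ∈ N ↔ ∀ q ∈ Q, x * q * x⁻¹ * q⁻¹ ∈ Φ := by
    intro x
    rw [hN, Subgroup.mem_comap, Subgroup.mem_centralizer_iff]
    constructor
    · intro h q hq
      have h1 := h (QuotientGroup.mk' Φ q) ⟨q, hq, rfl⟩
      rw [← QuotientGroup.eq_one_iff]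
      have h2 : ((x * q * x⁻¹ * q⁻¹ : X) : X ⧸ Φ) = QuotientGroup.mk' Φ x * QuotientGroup.mk' Φ q *
          (QuotientGroup.mk' Φ x)⁻¹ * (QuotientGroup.mk' Φ q)⁻¹ := rfl
      rw [h2, ← h1]
      group
    · rintro h _ ⟨q, hq, rfl⟩
      have h1 := h q hq
      rw [← QuotientGroup.eq_one_iff] at h1
      have h2 : ((x * q * x⁻¹ * q⁻¹ : X) : X ⧸ Φ) = QuotientGroup.mk' Φ x * QuotientGroup.mk' Φ q *
          (QuotientGroup.mk' Φ x)⁻¹ * (QuotientGroup.mk' Φ q)⁻¹ := rfl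
      rw [h2, mul_inv_eq_one, mul_inv_eq_iff_eq_mul] at h1
      exact h1.symm
  have hN2 : IsPGroup 2 N := by
    apply isPGroup_two_of_odd_trivial
    intro x hx ho
    have hφ : (MulAut.conjNormal x : MulAut Q) = 1 := by
      apply Cfsg.Agent.Lib.Helper9.aut_eq_one_of_frattini 2 hQ2
      · exact Nat.Coprime.coprime_dvd_left (orderOf_map_dvd (MulAut.conjNormal (H := Q)) x) ho
      · intro ψ hψ u
        obtain ⟨k, rfl⟩ := Subgroup.mem_zpowers_iff.mp hψ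
        rw [← map_zpow, ← hΦmem]
        exact (hNmem _).mp (N.zpow_mem hx k) u u.2
    have hxc : x ∈ Subgroup.centralizer (Q : Set X) := by
      rw [Subgroup.mem_centralizer_iff]
      intro q hq
      have h1 := congrArg (fun f : MulAut Q => ((f ⟨q, hq⟩ : Q) : X)) hφ
      simp only [MulAut.conjNormal_apply, MulAut.one_apply] at h1
      calc q * x = (x * q * x⁻¹) * x := by rw [h1]
        _ = x * q := by group
    have hxQ : x ∈ Q := by
      have := centralizer_generalizedFitting_le (G := X)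
      rw [hX] at this
      exact this hxc
    obtain ⟨k, hk⟩ := hQ2 ⟨x, hxQ⟩
    have h3 : orderOf x ∣ 2 ^ k := orderOf_dvd_of_pow_eq_one (congrArg Subtype.val hk)
    have h4 := Nat.eq_one_of_dvd_coprimes (ho.pow_right k) dvd_rfl h3
    exact orderOf_eq_one_iff.mp h4
  have hle : N ≤ Q := by rw [hQ]; exact le_pCore_of_normal hNn hN2
  apply hle
  rw [hNmem]
  intro q hqQ
  obtain ⟨w, hw⟩ : ∃ w, w = a * q * a⁻¹ * q⁻¹ := ⟨_, rfl⟩
  have hwQ : w ∈ Q := by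
    rw [hw]; exact Q.mul_mem (hQn.conj_mem q hqQ a) (Q.inv_mem hqQ)
  have hwa : Commute a w := by
    have : w = a * (q * a⁻¹ * q⁻¹) := by rw [hw]; group
    rw [this]
    exact (Commute.refl a).mul_right (hq q hqQ)
  have h5 : a ^ 2 * q * (a ^ 2)⁻¹ * q⁻¹ = w ^ 2 := by
    calc a ^ 2 * q * (a ^ 2)⁻¹ * q⁻¹ = a * (a * q * a⁻¹ * q⁻¹) * (q * a⁻¹ * q⁻¹) := by
          rw [pow_two]; group
      _ = a * w * (q * a⁻¹ * q⁻¹) := by rw [hw]
      _ = w * (a * q * a⁻¹ * q⁻¹) := by rw [hwa.eq]; group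
      _ = w ^ 2 := by rw [← hw, pow_two]
  rw [h5]
  have h6 := Cfsg.Agent.Lib.Helper22.pow_mem_frattini (p := 2) hQ2 ⟨w, hwQ⟩
  rw [← hΦmem] at h6
  exact h6

theorem fam_commute {X : Type*} [Group X] [Finite X] (P K C : Subgroup X) (hP : IsPGroup 2 P)
    (hPK : P ≤ K) (hCP : ∀ g ∈ K, C.map (MulAut.conj g).toMonoidHom ≤ P)
    (hti : ∀ h ∈ K, C.map (MulAut.conj h).toMonoidHom = C ∨ C.map (MulAut.conj h).toMonoidHom ⊓ C = ⊥)
    (hsq : ∃ c ∈ C, c ^ 2 ≠ 1) (hab : ∀ c ∈ C, ∀ c' ∈ C, c * c' = c' * c) :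
    ∀ g ∈ K, ∀ c ∈ C, ∀ c' ∈ C, Commute c (g * c' * g⁻¹) := by
  have hmm : ∀ s t : X, (C.map (MulAut.conj s).toMonoidHom).map (MulAut.conj t).toMonoidHom =
      C.map (MulAut.conj (t * s)).toMonoidHom := by
    intro s t
    rw [Subgroup.map_map]
    congr 1
    ext x
    simp [mul_assoc]
  have hone : C.map (MulAut.conj (1 : X)).toMonoidHom = C := by
    ext x
    simp
  have key := ti_commute P hP {R | ∃ s ∈ K, R = C.map (MulAut.conj s).toMonoidHom} ?_ ?_ ?_ ?_ ?_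
  · intro g hg c hc c' hc'
    by_cases h : C = C.map (MulAut.conj g).toMonoidHom
    · have h1 : g * c' * g⁻¹ ∈ C := by
        rw [h]; exact ⟨c', hc', rfl⟩
      exact hab c hc _ h1
    · exact key C ⟨1, K.one_mem, hone.symm⟩ _ ⟨g, hg, rfl⟩ h c hc _ ⟨c', hc', rfl⟩
  · rintro _ ⟨s, hs, rfl⟩
    exact hCP s hs
  · rintro t ht _ ⟨s, hs, rfl⟩
    exact ⟨t * s, K.mul_mem (hPK ht) hs, hmm s t⟩
  · rintro _ ⟨s, hs, rfl⟩
    obtain ⟨c, hc, hc2⟩ := hsq
    refine ⟨s * c * s⁻¹, ⟨c, hc, rfl⟩, ?_⟩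
    rw [conj_pow]
    intro h
    apply hc2
    calc c ^ 2 = s⁻¹ * (s * c ^ 2 * s⁻¹) * s := by group
      _ = 1 := by rw [h]; group
  · rintro _ ⟨s, hs, rfl⟩ _ ⟨t, ht, rfl⟩
    rw [Subgroup.card_map_of_injective (MulAut.conj s).injective,
      Subgroup.card_map_of_injective (MulAut.conj t).injective]
  · rintro _ ⟨s, hs, rfl⟩ _ ⟨t, ht, rfl⟩
    have e1 : C.map (MulAut.conj s).toMonoidHom =
        (C.map (MulAut.conj (t⁻¹ * s)).toMonoidHom).map (MulAut.conj t).toMonoidHom := by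
      rw [hmm]; congr 3; group
    rcases hti (t⁻¹ * s) (K.mul_mem (K.inv_mem ht) hs) with h | h
    · left
      rw [e1, h]
    · right
      rw [e1, ← Subgroup.map_inf _ _ _ (MulAut.conj t).injective, h, Subgroup.map_bot]

end Cfsg.Agent.Lib.Helper8
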