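import Mathlib

set_option autoImplicit false

namespace Cfsg.Agent.Lib.Helper8

open scoped IsMulCommutative

/-- Transfer evaluation when all relevant conjugates of powers of `g` are congruent to the powers. -/
theorem transfer_eq_pow_mod {G : Type*} [Group G] {H : Subgroup G} {A : Type*} [CommGroup A]
    (ϕ : H →* A) [H.FiniteIndex] (g : G) (hg : g ∈ H)
    (key : ∀ (k : ℕ) (g₀ : G) (hk : g₀⁻¹ * g ^ k * g₀ ∈ H), ϕ ⟨g₀⁻¹ * g ^ k * g₀, hk⟩ = ϕ ⟨g, hg⟩ ^ k) :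
    MonoidHom.transfer ϕ g = ϕ ⟨g, hg⟩ ^ H.index := by
  classical
  have : Fintype (Quotient (MulAction.orbitRel (Subgroup.zpowers (g : G)) (G ⧸ H))) :=
    Fintype.ofFinite _
  rw [Subgroup.index_eq_sum_minimalPeriod H g, ← Finset.prod_pow_eq_pow_sum,
    MonoidHom.transfer_eq_prod_quotient_orbitRel_zpowers_quot]
  apply Finset.prod_congr rfl
  intro q _
  exact key _ _ _

/-- A `p`-element of `H ∖ K` all of whose powers have controlled fusion survives under a homomorphism from `G`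
to `H ⧸ K` (the transfer). -/
theorem exists_hom_ne_one {G : Type*} [Group G] [Finite G] {p : ℕ} [Fact p.Prime] (H : Subgroup G)
    (K : Subgroup H) [K.Normal] (hab : commutator H ≤ K) (hidx : Nat.Coprime p H.index) (g : H)
    (hgK : g ∉ K) (hgp : ∃ k : ℕ, orderOf g = p ^ k)
    (hctrl : ∀ (m : ℕ) (a : G) (hm : a⁻¹ * (g : G) ^ m * a ∈ H), (⟨_, hm⟩ : H)⁻¹ * g ^ m ∈ K) :
    ∃ V : G →* H ⧸ K, V g ≠ 1 ∧ commutator G ≤ V.ker := by
  have hcomm : IsMulCommutative (H ⧸ K) :=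
    Subgroup.Normal.quotient_commutative_iff_commutator_le.mpr hab
  let ϕ : H →* H ⧸ K := QuotientGroup.mk' K
  refine ⟨MonoidHom.transfer ϕ, ?_, Abelianization.commutator_subset_ker _⟩
  have hV : MonoidHom.transfer ϕ (g : G) = ϕ ⟨g, g.2⟩ ^ H.index := by
    apply transfer_eq_pow_mod ϕ g g.2
    intro k g₀ hk
    rw [← map_pow]
    apply QuotientGroup.eq.mpr
    exact hctrl k g₀ hk
  intro hV1
  rw [hV1] at hV
  obtain ⟨k, hk⟩ := hgp
  have h5 : ϕ ⟨g, g.2⟩ ^ (p ^ k) = 1 := by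
    rw [← map_pow]
    have : (⟨g, g.2⟩ : H) ^ (p ^ k) = 1 := by
      rw [← hk]; exact pow_orderOf_eq_one g
    rw [this, map_one]
  have h6 := pow_gcd_eq_one.mpr ⟨h5, hV.symm⟩
  have h7 : Nat.gcd (p ^ k) H.index = 1 := Nat.Coprime.pow_left k hidx
  rw [h7, pow_one] at h6
  exact hgK ((QuotientGroup.eq_one_iff (N := K) g).mp h6)

end Cfsg.Agent.Lib.Helper8
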